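import Mathlib
import Cfsg.Prelude.Def_Characters
import Cfsg.Agent.CharactersDeep.IndFun
import Cfsg.Agent.OddOrderCharacters.VChar
import Cfsg.Agent.Characters.Linear
import Cfsg.Agent.Characters.Central
import Cfsg.Agent.S0898
import Cfsg.Agent.OddOrderCharacters.NormTwo
import Cfsg.Agent.Characters.Values
import Cfsg.Agent.CharactersDeep.Extraspecial
set_option linter.all false

-- part: H603/Cent
section
/-!
# Sylow subgroups whose non-identity elements all have the same centralizer

Group-theoretic part: `Q` is a nontrivial `p`-subgroup containing all `p`-elements of its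
centralizer `C`, and every non-identity element of `Q` has centralizer `C`.
-/

set_option autoImplicit false

namespace Cfsg.Agent.H603.Cent

universe u

variable {G : Type u} [Group G]

/-- `Q` is a nontrivial `p`-group with `C_G(x) = C_G(Q)` for all `1 ≠ x ∈ Q`, containing all the
`p`-elements of `C_G(Q)`. -/
structure Hyp (p : ℕ) (Q : Subgroup G) : Prop where
  ne_bot : Q ≠ ⊥
  star : ∀ x ∈ Q, x ≠ 1 →
    Subgroup.centralizer ({x} : Set G) = Subgroup.centralizer (Q : Set G)
  pgroup : IsPGroup p Q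
  max : ∀ c ∈ Subgroup.centralizer (Q : Set G), ∀ k : ℕ, c ^ p ^ k = 1 → c ∈ Q

variable {p : ℕ} {Q : Subgroup G}

theorem Hyp.comm (h : Hyp p Q) {x y : G} (hx : x ∈ Q) (hy : y ∈ Q) : x * y = y * x := by
  by_cases h1 : x = 1
  · subst h1; simp
  · have h2 : x ∈ Subgroup.centralizer ({x} : Set G) :=
      Subgroup.mem_centralizer_singleton_iff.2 rfl
    rw [h.star x hx h1] at h2
    exact (Subgroup.mem_centralizer_iff.1 h2 y hy).symm

theorem Hyp.le (h : Hyp p Q) : Q ≤ Subgroup.centralizer (Q : Set G) := fun x hx =>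
  Subgroup.mem_centralizer_iff.2 fun y hy => h.comm hy hx

/-- The centralizer of a set is normalized by the normalizer. -/
theorem conj_mem_centralizer {t c : G} (ht : t ∈ Subgroup.normalizer (Q : Set G))
    (hc : c ∈ Subgroup.centralizer (Q : Set G)) :
    t⁻¹ * c * t ∈ Subgroup.centralizer (Q : Set G) := by
  rw [Subgroup.mem_centralizer_iff] at hc ⊢
  intro x hx
  have h1 : t * x * t⁻¹ ∈ Q := (Subgroup.mem_normalizer_iff.1 ht x).1 hx
  have h2 := hc _ h1
  calc x * (t⁻¹ * c * t) = t⁻¹ * (t * x * t⁻¹ * c) * t := by group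
    _ = t⁻¹ * (c * (t * x * t⁻¹)) * t := by rw [h2]
    _ = t⁻¹ * c * t * x := by group

theorem conj_mem_self {t x : G} (ht : t ∈ Subgroup.normalizer (Q : Set G)) (hx : x ∈ Q) :
    t⁻¹ * x * t ∈ Q := by
  have h1 := inv_mem ht
  have h2 := (Subgroup.mem_normalizer_iff.1 h1 x).1 hx
  rwa [inv_inv] at h2

theorem orderOf_conj (t c : G) : orderOf (t⁻¹ * c * t) = orderOf c := by
  have h : t⁻¹ * c * t = MulAut.conj t⁻¹ c := by simp
  rw [h]
  exact MulEquiv.orderOf_eq (MulAut.conj t⁻¹) c

/-- The trivial intersection property. -/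
theorem Hyp.ti [Finite G] [hp : Fact p.Prime] (h : Hyp p Q) {c t : G}
    (hc : c ∈ Subgroup.centralizer (Q : Set G)) (hpc : p ∣ orderOf c)
    (ht : t⁻¹ * c * t ∈ Subgroup.centralizer (Q : Set G)) :
    t ∈ Subgroup.normalizer (Q : Set G) := by
  have h0 : orderOf c ≠ 0 := (orderOf_pos c).ne'
  obtain ⟨k, m, hm, hkm⟩ := Nat.exists_eq_pow_mul_and_not_dvd h0 p hp.1.ne_one
  set c' := c ^ m with hc'
  have hc'C : c' ∈ Subgroup.centralizer (Q : Set G) := Subgroup.pow_mem _ hc m
  have hc'1 : c' ^ p ^ k = 1 := by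
    rw [hc', ← pow_mul, mul_comm, ← hkm, pow_orderOf_eq_one]
  have hc'n : c' ≠ 1 := by
    intro h1
    exact hm (hpc.trans (orderOf_dvd_of_pow_eq_one h1))
  have hc'Q : c' ∈ Q := h.max c' hc'C k hc'1
  have hd : (t⁻¹ * c * t) ^ m = t⁻¹ * c' * t := by
    have h1 : ∀ j : ℕ, (t⁻¹ * c * t) ^ j = t⁻¹ * c ^ j * t := by
      intro j
      induction j with
      | zero => simp
      | succ j ih => rw [pow_succ, ih, pow_succ]; group
    exact h1 m
  have hdC : t⁻¹ * c' * t ∈ Subgroup.centralizer (Q : Set G) := by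
    rw [← hd]; exact Subgroup.pow_mem _ ht m
  have hdk : (t⁻¹ * c' * t) ^ p ^ k = 1 := by
    rw [← orderOf_dvd_iff_pow_eq_one, orderOf_conj]
    exact orderOf_dvd_of_pow_eq_one hc'1
  have hdQ : t⁻¹ * c' * t ∈ Q := h.max _ hdC k hdk
  have hdn : t⁻¹ * c' * t ≠ 1 := by
    intro h1
    apply hc'n
    have h2 : c' = t * (t⁻¹ * c' * t) * t⁻¹ := by group
    rw [h2, h1]; group
  have e1 := h.star c' hc'Q hc'n
  have e2 := h.star _ hdQ hdn
  have key : ∀ x, x ∈ (Q : Set G) → t⁻¹ * x * t⁻¹⁻¹ ∈ (Q : Set G) := by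
    intro x hx
    rw [inv_inv]
    have h1 : x ∈ Subgroup.centralizer ({c'} : Set G) := by rw [e1]; exact h.le hx
    rw [Subgroup.mem_centralizer_singleton_iff] at h1
    have h2 : t⁻¹ * x * t ∈ Subgroup.centralizer ({t⁻¹ * c' * t} : Set G) := by
      rw [Subgroup.mem_centralizer_singleton_iff]
      calc t⁻¹ * x * t * (t⁻¹ * c' * t) = t⁻¹ * (x * c') * t := by group
        _ = t⁻¹ * (c' * x) * t := by rw [h1]
        _ = t⁻¹ * c' * t * (t⁻¹ * x * t) := by group
    rw [e2] at h2
    obtain ⟨j, hj⟩ := h.pgroup ⟨x, hx⟩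
    have hj' : x ^ p ^ j = 1 := by simpa using congrArg Subtype.val hj
    refine h.max _ h2 j ?_
    rw [← orderOf_dvd_iff_pow_eq_one, orderOf_conj]
    exact orderOf_dvd_of_pow_eq_one hj'
  have h3 : t⁻¹ ∈ Subgroup.normalizer (Q : Set G) := Subgroup.mem_normalizer_fintype key
  simpa using inv_mem h3

/-- Conjugation by an element of the normalizer, on the centralizer. -/
def cjC (Q : Subgroup G) (t : Subgroup.normalizer (Q : Set G)) :
    Subgroup.centralizer (Q : Set G) →* Subgroup.centralizer (Q : Set G) where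
  toFun c := ⟨(t : G)⁻¹ * c * t, conj_mem_centralizer t.2 c.2⟩
  map_one' := by apply Subtype.ext; simp
  map_mul' a b := by apply Subtype.ext; simp; group

/-- Conjugation by an element of the normalizer, on the subgroup. -/
def cjQ (Q : Subgroup G) (t : Subgroup.normalizer (Q : Set G)) : Q →* Q where
  toFun c := ⟨(t : G)⁻¹ * c * t, conj_mem_self t.2 c.2⟩
  map_one' := by apply Subtype.ext; simp
  map_mul' a b := by apply Subtype.ext; simp; group

theorem cjC_coe (t : Subgroup.normalizer (Q : Set G)) (c : Subgroup.centralizer (Q : Set G)) :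
    (cjC Q t c : G) = (t : G)⁻¹ * c * t := rfl

theorem cjQ_coe (t : Subgroup.normalizer (Q : Set G)) (c : Q) :
    (cjQ Q t c : G) = (t : G)⁻¹ * c * t := rfl

theorem cjC_surjective (t : Subgroup.normalizer (Q : Set G)) :
    Function.Surjective (cjC Q t) := by
  intro c
  refine ⟨cjC Q t⁻¹ c, Subtype.ext ?_⟩
  rw [cjC_coe, cjC_coe]
  simp only [InvMemClass.coe_inv, inv_inv]
  group

theorem cjQ_cjQ (s t : Subgroup.normalizer (Q : Set G)) (x : Q) :
    cjQ Q s (cjQ Q t x) = cjQ Q (t * s) x := by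
  apply Subtype.ext
  rw [cjQ_coe, cjQ_coe, cjQ_coe]
  push_cast
  group

theorem cjQ_comp (s t : Subgroup.normalizer (Q : Set G)) :
    (cjQ Q s).comp (cjQ Q t) = cjQ Q (t * s) := MonoidHom.ext fun x => cjQ_cjQ s t x

theorem cjQ_one : cjQ Q 1 = MonoidHom.id Q := by
  ext x
  rw [cjQ_coe]
  simp

theorem cjQ_surjective (t : Subgroup.normalizer (Q : Set G)) :
    Function.Surjective (cjQ Q t) := by
  intro c
  refine ⟨cjQ Q t⁻¹ c, ?_⟩
  rw [cjQ_cjQ, inv_mul_cancel, cjQ_one]
  rfl

/-- A homomorphism on `Q` fixed by an element of `N(Q)` outside `C(Q)` is trivial. -/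
theorem Hyp.stab [Finite G] (h : Hyp p Q) {M : Type*} [Group M] {t : Subgroup.normalizer (Q : Set G)}
    (l : Q →* M) (ht : (t : G) ∉ Subgroup.centralizer (Q : Set G)) (hl : l.comp (cjQ Q t) = l) :
    l = 1 := by
  let f : Q →* Q :=
    { toFun := fun x => x⁻¹ * cjQ Q t x
      map_one' := by simp
      map_mul' := fun a b => by
        have hab : ∀ x y : Q, x * y = y * x := fun x y => Subtype.ext (h.comm x.2 y.2)
        rw [map_mul, mul_inv_rev]
        calc b⁻¹ * a⁻¹ * (cjQ Q t a * cjQ Q t b) = b⁻¹ * (a⁻¹ * cjQ Q t a) * cjQ Q t b := by group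
          _ = (a⁻¹ * cjQ Q t a) * b⁻¹ * cjQ Q t b := by rw [hab b⁻¹]
          _ = a⁻¹ * cjQ Q t a * (b⁻¹ * cjQ Q t b) := by group }
  have hf : ∀ x, f x = x⁻¹ * cjQ Q t x := fun _ => rfl
  have hinj : Function.Injective f := by
    rw [injective_iff_map_eq_one]
    intro x hx
    by_contra hx1
    apply ht
    rw [hf, inv_mul_eq_one] at hx
    have hx' : (x : G) = (t : G)⁻¹ * x * t := by
      have := congrArg Subtype.val hx
      rwa [cjQ_coe] at this
    rw [← h.star x x.2 (by simpa using hx1), Subgroup.mem_centralizer_singleton_iff]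
    calc (t : G) * x = t * ((t : G)⁻¹ * x * t) := by rw [← hx']
      _ = x * t := by group
  have hsurj : Function.Surjective f := Finite.surjective_of_injective hinj
  ext x
  obtain ⟨y, rfl⟩ := hsurj x
  rw [hf, map_mul, map_inv]
  have h1 : l (cjQ Q t y) = l y := DFunLike.congr_fun hl y
  rw [h1, inv_mul_cancel]
  rfl

/-- Elements of the centralizer act trivially. -/
theorem cjQ_of_mem {t : Subgroup.normalizer (Q : Set G)}
    (ht : (t : G) ∈ Subgroup.centralizer (Q : Set G)) : cjQ Q t = MonoidHom.id Q := by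
  ext x
  rw [cjQ_coe]
  have h1 := Subgroup.mem_centralizer_iff.1 ht x x.2
  simp only [MonoidHom.id_apply]
  rw [mul_assoc, h1]
  group

/-- A Sylow subgroup with the centralizer condition satisfies `Hyp`. -/
theorem hyp_of_sylow [Finite G] [hp : Fact p.Prime] (P : Sylow p G) (hpG : p ∣ Nat.card G)
    (hstar : ∀ x ∈ (P : Subgroup G), x ≠ 1 → Subgroup.centralizer ({x} : Set G) =
      Subgroup.centralizer ((P : Subgroup G) : Set G)) : Hyp p (P : Subgroup G) where
  ne_bot := Sylow.ne_bot_of_dvd_card P hpG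
  star := hstar
  pgroup := P.isPGroup'
  max := by
    intro c hc k hk
    have h1 : IsPGroup p (Subgroup.zpowers c) := by
      obtain ⟨j, -, hj⟩ := (Nat.dvd_prime_pow hp.1).1 (orderOf_dvd_of_pow_eq_one hk)
      exact IsPGroup.of_card (n := j) (by rw [Nat.card_zpowers, hj])
    have h2 := h1.inf_normalizer_sylow P
    have h3 : c ∈ Subgroup.zpowers c ⊓ Subgroup.normalizer (P : Set G) := by
      refine ⟨Subgroup.mem_zpowers c, ?_⟩
      show c ∈ Subgroup.normalizer ((P : Subgroup G) : Set G)
      have h5 : c ∈ Subgroup.normalizer ((P : Subgroup G) : Set G) := by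
        refine Subgroup.mem_normalizer_fintype ?_
        intro x hx
        have h4 := Subgroup.mem_centralizer_iff.1 hc x hx
        rw [← h4]
        simpa using hx
      exact h5
    rw [h2] at h3
    exact h3.2

end Cfsg.Agent.H603.Cent
end

-- part: H603/Ext
section
/-!
# Extending linear characters of a central Sylow subgroup
-/

set_option autoImplicit false

namespace Cfsg.Agent.H603.Ext

open Cfsg.Agent.H603.Cent

universe u

variable {G : Type u} [Group G] [Finite G] {p : ℕ} [hp : Fact p.Prime] {Q : Subgroup G}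

/-- A retraction-like homomorphism from a group onto a central Sylow subgroup: on the subgroup it is
a power map with exponent prime to `p`, and it kills the `p`-regular elements. -/
theorem exists_tau {C : Type u} [Group C] [Finite C] (S : Sylow p C)
    (hS : ∀ x ∈ (S : Subgroup C), ∀ c : C, x * c = c * x) :
    ∃ (τ : C →* (S : Subgroup C)) (m : ℕ), m.Coprime p ∧ (∀ x : (S : Subgroup C), τ x = x ^ m) ∧
      ∀ c : C, ¬ p ∣ orderOf c → τ c = 1 := by
  have hN : Subgroup.normalizer ((S : Subgroup C) : Set C) ≤ Subgroup.centralizer (S : Set C) := by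
    intro c _
    rw [Subgroup.mem_centralizer_iff]
    intro x hx
    exact hS x hx c
  refine ⟨MonoidHom.transferSylow S hN, (S : Subgroup C).index, ?_, ?_, ?_⟩
  · exact ((Nat.Prime.coprime_iff_not_dvd hp.1).2 S.not_dvd_index).symm
  · intro x
    exact MonoidHom.transferSylow_eq_pow S hN x x.2
  · intro c hc
    set y := MonoidHom.transferSylow S hN c with hy
    obtain ⟨k, hk⟩ := S.isPGroup' y
    have h1 : orderOf y ∣ orderOf c := orderOf_map_dvd _ _
    have h2 : orderOf y ∣ p ^ k := orderOf_dvd_of_pow_eq_one hk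
    obtain ⟨j, -, hj⟩ := (Nat.dvd_prime_pow hp.1).1 h2
    have h3 : j = 0 := by
      by_contra hj0
      apply hc
      refine dvd_trans ?_ h1
      rw [hj]
      exact dvd_pow_self p hj0
    rw [h3, pow_zero, orderOf_eq_one_iff] at hj
    exact hj

/-- Linear characters of `Q` extend to `C(Q)`, with the extensions trivial on `p`-regular
elements, multiplicatively. -/
theorem exists_ext (P : Sylow p G) (h : Hyp p (P : Subgroup G)) :
    ∃ E : ((P : Subgroup G) →* ℂˣ) →*
        (Subgroup.centralizer ((P : Subgroup G) : Set G) →* ℂˣ),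
      (∀ l (x : (P : Subgroup G)), E l ⟨x, h.le x.2⟩ = l x) ∧
      ∀ l (c : Subgroup.centralizer ((P : Subgroup G) : Set G)), ¬ p ∣ orderOf c → E l c = 1 := by
  set C := Subgroup.centralizer ((P : Subgroup G) : Set G) with hC
  have hle : (P : Subgroup G) ≤ C := h.le
  let S : Sylow p C := P.subtype hle
  have hSmem : ∀ x : C, x ∈ (S : Subgroup C) ↔ (x : G) ∈ (P : Subgroup G) := fun x => by
    show x ∈ (S : Subgroup C) ↔ _
    rw [Sylow.coe_subtype, Subgroup.mem_subgroupOf]
  have hS : ∀ x ∈ (S : Subgroup C), ∀ c : C, x * c = c * x := by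
    intro x hx c
    apply Subtype.ext
    exact Subgroup.mem_centralizer_iff.1 c.2 x ((hSmem x).1 hx)
  obtain ⟨τ, m, hm, h1, h2⟩ := exists_tau S hS
  let e : (S : Subgroup C) →* (P : Subgroup G) :=
    { toFun := fun x => ⟨((x : C) : G), (hSmem x).1 x.2⟩
      map_one' := rfl
      map_mul' := fun _ _ => rfl }
  have hcop : m.Coprime (Nat.card (P : Subgroup G)) := by
    obtain ⟨k, hk⟩ := IsPGroup.iff_card.1 h.pgroup
    rw [hk]
    exact Nat.Coprime.pow_right k hm
  have hPne : Nat.card (P : Subgroup G) ≠ 1 := by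
    intro h3
    exact h.ne_bot (Subgroup.card_eq_one.1 h3)
  obtain ⟨m', hm'⟩ := Nat.exists_mul_mod_eq_one_of_coprime hcop
    (lt_of_le_of_ne Nat.card_pos (Ne.symm hPne))
  refine ⟨{ toFun := fun l => ((l.comp e).comp τ) ^ m', map_one' := ?_, map_mul' := ?_ }, ?_, ?_⟩
  · ext c
    simp
  · intro a b
    ext c
    simp [mul_pow]
  · intro l x
    show (l (e (τ ⟨x, h.le x.2⟩))) ^ m' = l x
    have h3 : τ ⟨x, h.le x.2⟩ = (⟨⟨x, h.le x.2⟩, (hSmem _).2 x.2⟩ : (S : Subgroup C)) ^ m :=
      h1 ⟨⟨x, h.le x.2⟩, (hSmem _).2 x.2⟩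
    have h4 : e (τ ⟨x, h.le x.2⟩) = x ^ m := by
      rw [h3, map_pow]
      rfl
    rw [h4, map_pow, ← pow_mul]
    have h5 : (l x) ^ Nat.card (P : Subgroup G) = 1 := by
      rw [← map_pow, pow_card_eq_one', map_one]
    have h6 : m * m' = Nat.card (P : Subgroup G) * (m * m' / Nat.card (P : Subgroup G)) + 1 := by
      have := Nat.div_add_mod (m * m') (Nat.card (P : Subgroup G))
      rw [hm'.2] at this
      exact this.symm
    rw [h6, pow_add, pow_mul, h5, one_pow, one_mul, pow_one]
  · intro l c hc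
    show (l (e (τ c))) ^ m' = 1
    rw [h2 c hc, map_one, map_one, one_pow]

end Cfsg.Agent.H603.Ext
end

-- part: H603/Ind
section
/-!
# Induction of functions on the centralizer vanishing on `p`-regular elements
-/

set_option autoImplicit false

namespace Cfsg.Agent.H603.Ind

open Cfsg Cfsg.Agent.Characters.Core Cfsg.Agent.H603.Cent
open scoped ComplexConjugate

universe u

variable {G : Type u} [Group G] {p : ℕ} {Q : Subgroup G}

/-- A function vanishing on the `p`-regular elements. -/
def PSing (p : ℕ) {C : Type u} [Group C] (α : C → ℂ) : Prop := ∀ c : C, ¬ p ∣ orderOf c → α c = 0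

theorem PSing.sub {C : Type u} [Group C] {α β : C → ℂ} (ha : PSing p α) (hb : PSing p β) :
    PSing p (α - β) := fun c hc => by rw [Pi.sub_apply, ha c hc, hb c hc, sub_zero]

section
variable [Fintype G] [hp : Fact p.Prime]

open Classical in
/-- The restriction to `C` of a function induced from `C`. -/
theorem indFun_restrict (h : Hyp p Q) {α : Subgroup.centralizer (Q : Set G) → ℂ}
    (hα : PSing p α) (c : Subgroup.centralizer (Q : Set G)) :
    indFun (Subgroup.centralizer (Q : Set G)) α c =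
      (Nat.card (Subgroup.centralizer (Q : Set G)) : ℂ)⁻¹ *
        ∑ t : Subgroup.normalizer (Q : Set G), α (cjC Q t c) := by
  rw [CharactersDeep.IndFun.indFun_def]
  congr 1
  refine (Fintype.sum_of_injective (Subtype.val : Subgroup.normalizer (Q : Set G) → G)
    Subtype.val_injective _ _ ?_ ?_).symm
  · intro t ht
    have ht' : t ∉ Subgroup.normalizer (Q : Set G) := fun h' => ht ⟨⟨t, h'⟩, rfl⟩
    by_cases hc : t⁻¹ * c * t ∈ Subgroup.centralizer (Q : Set G)
    · rw [CharactersDeep.IndFun.extendByZero_mem _ _ hc]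
      apply hα
      intro hpc
      apply ht'
      refine h.ti c.2 ?_ hc
      rw [← orderOf_conj t (c : G)]
      rwa [Subgroup.orderOf_mk] at hpc
    · exact CharactersDeep.IndFun.extendByZero_notMem _ _ hc
  · intro t
    have hc : (t : G)⁻¹ * c * t ∈ Subgroup.centralizer (Q : Set G) :=
      conj_mem_centralizer t.2 c.2
    rw [CharactersDeep.IndFun.extendByZero_mem _ _ hc]
    rfl

/-- The form `Γ`. -/
noncomputable def Gam (Q : Subgroup G) [Fintype (Subgroup.centralizer (Q : Set G))]
    [Fintype (Subgroup.normalizer (Q : Set G))]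
    (α β : Subgroup.centralizer (Q : Set G) → ℂ) : ℂ :=
  (Nat.card (Subgroup.centralizer (Q : Set G)) : ℂ)⁻¹ *
    ∑ t : Subgroup.normalizer (Q : Set G), classInner α (fun c => β (cjC Q t c))

omit [Fintype G] [hp : Fact p.Prime] in
theorem Gam_sub_left [Fintype (Subgroup.centralizer (Q : Set G))]
    [Fintype (Subgroup.normalizer (Q : Set G))]
    (α α' β : Subgroup.centralizer (Q : Set G) → ℂ) :
    Gam Q (α - α') β = Gam Q α β - Gam Q α' β := by
  unfold Gam
  rw [← mul_sub, ← Finset.sum_sub_distrib]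
  congr 1
  exact Finset.sum_congr rfl fun t _ => classInner_sub_left _ _ _

omit [Fintype G] [hp : Fact p.Prime] in
theorem Gam_sub_right [Fintype (Subgroup.centralizer (Q : Set G))]
    [Fintype (Subgroup.normalizer (Q : Set G))]
    (α β β' : Subgroup.centralizer (Q : Set G) → ℂ) :
    Gam Q α (β - β') = Gam Q α β - Gam Q α β' := by
  unfold Gam
  rw [← mul_sub, ← Finset.sum_sub_distrib]
  congr 1
  refine Finset.sum_congr rfl fun t _ => ?_
  exact classInner_sub_right α (fun c => β (cjC Q t c)) (fun c => β' (cjC Q t c))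

/-- Inner products of functions induced from `C`. -/
theorem inner_ind (h : Hyp p Q) [Fintype (Subgroup.centralizer (Q : Set G))]
    [Fintype (Subgroup.normalizer (Q : Set G))]
    {α β : Subgroup.centralizer (Q : Set G) → ℂ} (hβ : PSing p β) :
    classInner (indFun (Subgroup.centralizer (Q : Set G)) α)
      (indFun (Subgroup.centralizer (Q : Set G)) β) = Gam Q α β := by
  classical
  rw [CharactersDeep.IndFun.classInner_indFun _ _ _
    (CharactersDeep.IndFun.isClassFunction_indFun _ _)]
  have h1 : (fun c : Subgroup.centralizer (Q : Set G) =>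
      indFun (Subgroup.centralizer (Q : Set G)) β c) =
      ((Nat.card (Subgroup.centralizer (Q : Set G)) : ℂ)⁻¹) •
        ∑ t : Subgroup.normalizer (Q : Set G), fun c => β (cjC Q t c) := by
    funext c
    rw [indFun_restrict h hβ, Pi.smul_apply, Finset.sum_apply, smul_eq_mul]
    congr 1
    refine Finset.sum_congr ?_ fun _ _ => rfl
    ext x
    simp
  rw [h1, classInner_smul_right, classInner_sum_right]
  unfold Gam
  congr 1
  simp

/-- The value at one of an induced function. -/
theorem indFun_one (C : Subgroup G) (α : C → ℂ) (hα : α 1 = 0) : indFun C α 1 = 0 := by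
  rw [CharactersDeep.IndFun.indFun_def, Finset.sum_eq_zero, mul_zero]
  intro x _
  have h1 : x⁻¹ * 1 * x = ((1 : C) : G) := by simp
  rw [h1, CharactersDeep.IndFun.extendByZero_mem _ _ (1 : C).2]
  exact hα

/-- Induced generalized characters. -/
theorem gen_ind (C : Subgroup G) {α : C → ℂ} (hα : IsGeneralizedCharacter C α) :
    IsGeneralizedCharacter G (indFun C α) := by
  obtain ⟨a, b, ha, hb, rfl⟩ := hα
  exact ⟨indFun C a, indFun C b, CharactersDeep.IndFun.isCharacter_indFun _ ha,
    CharactersDeep.IndFun.isCharacter_indFun _ hb, CharactersDeep.IndFun.indFun_sub _ _ _⟩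

end

/-! ### Functions lying over a linear character of `Q` -/

/-- `η` lies over the linear character `l` of `Q`. -/
def Over (h : Hyp p Q) (η : Subgroup.centralizer (Q : Set G) → ℂ) (l : Q →* ℂˣ) : Prop :=
  ∀ (x : Q) (c : Subgroup.centralizer (Q : Set G)), η (⟨x, h.le x.2⟩ * c) = l x * η c

/-- Every irreducible character of `C` lies over some linear character of `Q`. -/
theorem exists_over (h : Hyp p Q) {η : Subgroup.centralizer (Q : Set G) → ℂ}
    (hη : IsIrrCharacter _ η) : ∃ l : Q →* ℂˣ, Over h η l := by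
  obtain ⟨n, ρ, hρ, rfl⟩ := hη
  have hcomm : ∀ x : Q, ∀ g, ρ ⟨x, h.le x.2⟩ * ρ g = ρ g * ρ ⟨x, h.le x.2⟩ := by
    intro x g
    rw [← map_mul, ← map_mul]
    congr 1
    apply Subtype.ext
    exact Subgroup.mem_centralizer_iff.1 g.2 x x.2
  choose c hc using fun x : Q =>
    Characters.Central.exists_smul_of_comm ρ hρ (ρ ⟨x, h.le x.2⟩) (hcomm x)
  have hpos := Characters.Central.finrank_pos_of_irr ρ hρ
  have hnt : Nontrivial (Fin n → ℂ) := Module.nontrivial_of_finrank_pos (R := ℂ) hpos
  have hinj : ∀ a b : ℂ, a • (1 : Module.End ℂ (Fin n → ℂ)) = b • 1 → a = b := by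
    intro a b hab
    obtain ⟨v, hv⟩ := exists_ne (0 : Fin n → ℂ)
    have h1 := LinearMap.congr_fun hab v
    exact smul_left_injective ℂ hv h1
  let cM : Q →* ℂ :=
    { toFun := c
      map_one' := by
        apply hinj
        rw [← hc 1, one_smul]
        have : (⟨((1 : Q) : G), h.le (1 : Q).2⟩ : Subgroup.centralizer (Q : Set G)) = 1 := rfl
        rw [this, map_one]
      map_mul' := by
        intro a b
        apply hinj
        rw [← hc (a * b)]
        have : (⟨((a * b : Q) : G), h.le (a * b : Q).2⟩ : Subgroup.centralizer (Q : Set G)) =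
          ⟨a, h.le a.2⟩ * ⟨b, h.le b.2⟩ := rfl
        rw [this, map_mul, hc a, hc b, smul_mul_smul_comm, one_mul] }
  refine ⟨cM.toHomUnits, fun x g => ?_⟩
  rw [MonoidHom.coe_toHomUnits]
  show LinearMap.trace ℂ _ (ρ (⟨x, h.le x.2⟩ * g)) = c x * LinearMap.trace ℂ _ (ρ g)
  rw [map_mul, hc x, smul_mul_assoc, one_mul, map_smul, smul_eq_mul]

theorem Over.unique (h : Hyp p Q) {η : Subgroup.centralizer (Q : Set G) → ℂ} {l l' : Q →* ℂˣ}
    (h1 : η 1 ≠ 0) (hl : Over h η l) (hl' : Over h η l') : l = l' := by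
  ext x
  have e1 := hl x 1
  have e2 := hl' x 1
  rw [e1] at e2
  exact mul_right_cancel₀ h1 e2

/-- Twisting by (the extension of) a linear character. -/
theorem Over.mul (h : Hyp p Q) {η : Subgroup.centralizer (Q : Set G) → ℂ} {l m : Q →* ℂˣ}
    (hl : Over h η l) (M : Subgroup.centralizer (Q : Set G) →* ℂˣ)
    (hM : ∀ x : Q, M ⟨x, h.le x.2⟩ = m x) : Over h (fun c => η c * M c) (l * m) := by
  intro x c
  show η (⟨x, h.le x.2⟩ * c) * M (⟨x, h.le x.2⟩ * c) = _
  rw [hl x c, map_mul, hM x, MonoidHom.mul_apply]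
  push_cast
  ring

theorem Over.of_hom (h : Hyp p Q) {m : Q →* ℂˣ} (M : Subgroup.centralizer (Q : Set G) →* ℂˣ)
    (hM : ∀ x : Q, M ⟨x, h.le x.2⟩ = m x) : Over h (fun c => (M c : ℂ)) m := by
  intro x c
  show ((M (⟨x, h.le x.2⟩ * c) : ℂˣ) : ℂ) = _
  rw [map_mul, hM x]
  push_cast
  ring

/-- Conjugating. -/
theorem Over.conj (h : Hyp p Q) {η : Subgroup.centralizer (Q : Set G) → ℂ} {l : Q →* ℂˣ}
    (hl : Over h η l) (t : Subgroup.normalizer (Q : Set G)) :
    Over h (fun c => η (cjC Q t c)) (l.comp (cjQ Q t)) := by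
  intro x c
  show η (cjC Q t (⟨x, h.le x.2⟩ * c)) = _
  rw [map_mul]
  exact hl (cjQ Q t x) (cjC Q t c)

theorem isIrr_mul_hom {C : Type u} [Group C] [Finite C] {η : C → ℂ} (hη : IsIrrCharacter C η)
    (M : C →* ℂˣ) : IsIrrCharacter C (fun c => η c * M c) := by
  classical
  have : Fintype C := Fintype.ofFinite _
  have hc : IsCharacter C (fun c => η c * M c) :=
    isCharacter_mul (isIrr_isCharacter hη) (Characters.Linear.isCharacter_hom M)
  rw [isIrr_iff_classInner_self hc]
  rw [← classInner_irr_self hη]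
  unfold classInner
  congr 1
  refine Finset.sum_congr rfl fun c _ => ?_
  rw [map_mul]
  have h1 : (M c : ℂ) * conj (M c : ℂ) = 1 := by
    rw [Complex.mul_conj, Complex.normSq_eq_norm_sq, Characters.Linear.norm_hom_apply]
    simp
  calc η c * (M c : ℂ) * (conj (η c) * conj (M c : ℂ)) =
        η c * conj (η c) * ((M c : ℂ) * conj (M c : ℂ)) := by ring
    _ = η c * conj (η c) := by rw [h1, mul_one]

section
variable [Finite G]

omit [Finite G] in
/-- Irreducible characters over non-conjugate linear characters are orthogonal for `Γ`. -/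
theorem Gam_eq_zero (h : Hyp p Q) [Fintype (Subgroup.centralizer (Q : Set G))]
    [Fintype (Subgroup.normalizer (Q : Set G))]
    {η η' : Subgroup.centralizer (Q : Set G) → ℂ} (hη : IsIrrCharacter _ η)
    (hη' : IsIrrCharacter _ η') {l l' : Q →* ℂˣ} (hl : Over h η l) (hl' : Over h η' l')
    (hne : ∀ t : Subgroup.normalizer (Q : Set G), l'.comp (cjQ Q t) ≠ l) : Gam Q η η' = 0 := by
  unfold Gam
  rw [Finset.sum_eq_zero, mul_zero]
  intro t _
  have h1 : IsIrrCharacter (Subgroup.centralizer (Q : Set G)) (fun c => η' (cjC Q t c)) :=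
    isIrr_comp (cjC Q t) (cjC_surjective t) hη'
  apply classInner_irr_ne hη h1
  rintro rfl
  apply hne t
  exact Over.unique h (isIrr_apply_one_ne_zero hη) (Over.conj h hl' t) hl

open Classical in
/-- Irreducible characters over the same nontrivial linear character. -/
theorem Gam_same (h : Hyp p Q) [Fintype (Subgroup.centralizer (Q : Set G))]
    [Fintype (Subgroup.normalizer (Q : Set G))]
    {η η' : Subgroup.centralizer (Q : Set G) → ℂ} (hη : IsIrrCharacter _ η)
    (hη' : IsIrrCharacter _ η') {l : Q →* ℂˣ} (hl : Over h η l) (hl' : Over h η' l)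
    (hne : l ≠ 1) : Gam Q η η' = if η = η' then 1 else 0 := by
  unfold Gam
  have hterm : ∀ t : Subgroup.normalizer (Q : Set G),
      classInner η (fun c => η' (cjC Q t c)) =
        if (t : G) ∈ Subgroup.centralizer (Q : Set G) then classInner η η' else 0 := by
    intro t
    split_ifs with ht
    · congr 1
      funext c
      have h1 := isIrr_isClassFunction hη' c (⟨t, ht⟩⁻¹ : Subgroup.centralizer (Q : Set G))
      rw [← h1]
      congr 1
      apply Subtype.ext
      rw [cjC_coe]
      simp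
    · have h1 : IsIrrCharacter (Subgroup.centralizer (Q : Set G)) (fun c => η' (cjC Q t c)) :=
        isIrr_comp (cjC Q t) (cjC_surjective t) hη'
      apply classInner_irr_ne hη h1
      rintro rfl
      apply hne
      apply h.stab l ht
      exact Over.unique h (isIrr_apply_one_ne_zero hη) (Over.conj h hl' t) hl
  simp only [hterm]
  rw [← Finset.sum_filter, Finset.sum_const, nsmul_eq_mul]
  have hcard : (Finset.univ.filter fun t : Subgroup.normalizer (Q : Set G) =>
      (t : G) ∈ Subgroup.centralizer (Q : Set G)).card =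
      Nat.card (Subgroup.centralizer (Q : Set G)) := by
    rw [← Fintype.card_subtype, ← Nat.card_eq_fintype_card]
    refine Nat.card_congr ⟨fun t => ⟨t.1.1, t.2⟩, fun c =>
      ⟨⟨c.1, Subgroup.centralizer_le_normalizer _ c.2⟩, c.2⟩, fun t => rfl, fun c => rfl⟩
  rw [hcard, inv_mul_cancel_left₀ (by exact_mod_cast Nat.card_pos.ne')]
  exact classInner_irr hη hη'

omit [Finite G] in
/-- `Γ(1, 1) = |N : C|`. -/
theorem Gam_one [Fintype (Subgroup.centralizer (Q : Set G))]
    [Fintype (Subgroup.normalizer (Q : Set G))] :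
    Gam Q (1 : Subgroup.centralizer (Q : Set G) → ℂ) 1 =
      (Nat.card (Subgroup.centralizer (Q : Set G)) : ℂ)⁻¹ *
        (Nat.card (Subgroup.normalizer (Q : Set G)) : ℂ) := by
  unfold Gam
  have h1 : ∀ t : Subgroup.normalizer (Q : Set G),
      classInner (1 : Subgroup.centralizer (Q : Set G) → ℂ)
        (fun c => (1 : Subgroup.centralizer (Q : Set G) → ℂ) (cjC Q t c)) = 1 := fun t =>
    classInner_irr_self isIrr_one
  simp only [h1]
  simp [Nat.card_eq_fintype_card]

end

end Cfsg.Agent.H603.Ind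
end

-- part: H603/Mult
section
/-!
# Multiplicities of linear characters of an abelian subgroup
-/

set_option autoImplicit false

namespace Cfsg.Agent.H603.Mult

open Cfsg Cfsg.Agent.Characters.Core Cfsg.Agent.H603.Cent Cfsg.Agent.H603.Ind
open scoped ComplexConjugate

universe u

section abelian

variable {A : Type u} [Group A] [Fintype A]

/-- The irreducible characters of an abelian group are the linear ones. -/
noncomputable def linEquiv (hab : ∀ a b : A, a * b = b * a) : (A →* ℂˣ) ≃ IrrCharacter A :=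
  (Characters.Linear.linearEquiv A).trans
    (Equiv.subtypeUnivEquiv fun χ => S0898.irr_one_of_comm hab χ.2)

omit [Fintype A] in
theorem linEquiv_apply (hab : ∀ a b : A, a * b = b * a) (l : A →* ℂˣ) :
    ((linEquiv hab l : IrrCharacter A) : A → ℂ) = fun a => (l a : ℂ) := rfl

omit [Fintype A] in
theorem isClass (hab : ∀ a b : A, a * b = b * a) (g : A → ℂ) : IsClassFunction A g := by
  intro a b
  rw [hab b a, mul_inv_cancel_right]

theorem sum_eq_one (hab : ∀ a b : A, a * b = b * a) [Fintype (A →* ℂˣ)] (g : A → ℂ) :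
    g 1 = ∑ l : A →* ℂˣ, classInner g (fun a => (l a : ℂ)) := by
  classical
  have hf : Finite (IrrCharacter A) := finite_irr
  have : Fintype (IrrCharacter A) := Fintype.ofFinite _
  have h1 := congrFun (classFunction_eq_sum (isClass hab g)) 1
  rw [h1, Finset.sum_apply]
  symm
  refine Fintype.sum_equiv (linEquiv hab) _ _ fun l => ?_
  rw [linEquiv_apply, Pi.smul_apply, map_one]
  simp

theorem parseval (hab : ∀ a b : A, a * b = b * a) [Fintype (A →* ℂˣ)] (g g' : A → ℂ) :
    classInner g g' = ∑ l : A →* ℂˣ, classInner g (fun a => (l a : ℂ)) *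
      conj (classInner g' (fun a => (l a : ℂ))) := by
  classical
  have hf : Finite (IrrCharacter A) := finite_irr
  have : Fintype (IrrCharacter A) := Fintype.ofFinite _
  rw [classInner_eq_sum (isClass hab g) (isClass hab g')]
  symm
  exact Fintype.sum_equiv (linEquiv hab) _ _ fun l => rfl

theorem card_hom (hab : ∀ a b : A, a * b = b * a) : Nat.card (A →* ℂˣ) = Nat.card A := by
  rw [Characters.Linear.card_hom_eq_index_commutator]
  have : commutator A = ⊥ := by
    rw [commutator_def, Subgroup.commutator_eq_bot_iff_le_centralizer]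
    intro a _
    rw [Subgroup.mem_centralizer_iff]
    intro b _
    exact hab b a
  rw [this, Subgroup.index_bot]

end abelian

variable {G : Type u} [Group G] {p : ℕ} {Q : Subgroup G}

/-- The multiplicity of `l` in the restriction of `f` to `Q`. -/
noncomputable def mul [Fintype Q] (l : Q →* ℂˣ) (f : G → ℂ) : ℂ :=
  classInner (fun x : Q => f x) (fun x : Q => (l x : ℂ))

theorem mul_nat [Fintype Q] (l : Q →* ℂˣ) {f : G → ℂ} (hf : IsCharacter G f) :
    ∃ n : ℕ, mul l f = n :=
  classInner_isNat (isCharacter_comp Q.subtype hf) (Characters.Linear.isCharacter_hom l)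

theorem mul_sum [Fintype Q] (h : Hyp p Q) [Fintype (Q →* ℂˣ)] (f : G → ℂ) :
    f 1 = ∑ l : Q →* ℂˣ, mul l f :=
  sum_eq_one (fun a b => Subtype.ext (h.comm a.2 b.2)) (fun x : Q => f x)

theorem mul_norm [Fintype Q] (h : Hyp p Q) [Fintype (Q →* ℂˣ)] (f : G → ℂ) :
    mul (1 : Q →* ℂˣ) (fun g => f g * conj (f g)) =
      ∑ l : Q →* ℂˣ, mul l f * conj (mul l f) := by
  have h1 := parseval (fun a b => Subtype.ext (h.comm a.2 b.2)) (fun x : Q => f x)
    (fun x : Q => f x)
  rw [show (∑ l : Q →* ℂˣ, mul l f * conj (mul l f)) = _ from h1.symm]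
  unfold mul classInner
  congr 1
  refine Finset.sum_congr rfl fun x _ => ?_
  simp

theorem mul_conj [Fintype Q] {f : G → ℂ} (hf : IsClassFunction G f)
    (t : Subgroup.normalizer (Q : Set G)) (l : Q →* ℂˣ) :
    mul (l.comp (cjQ Q t)) f = mul l f := by
  unfold mul classInner
  congr 1
  have hbij : Function.Bijective (cjQ Q t) := by
    refine ⟨?_, cjQ_surjective t⟩
    intro a b hab
    have h1 := congrArg (cjQ Q t⁻¹) hab
    rw [cjQ_cjQ, cjQ_cjQ, mul_inv_cancel, cjQ_one] at h1
    exact h1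
  refine Fintype.sum_bijective (cjQ Q t) hbij _ _ fun x => ?_
  show f x * conj (l (cjQ Q t x) : ℂ) = f (cjQ Q t x) * conj (l (cjQ Q t x) : ℂ)
  congr 1
  rw [cjQ_coe]
  have := hf x (t : G)⁻¹
  rw [inv_inv] at this
  exact this.symm

/-- If only the trivial character occurs, the value is constant. -/
theorem const_of_mul [Fintype Q] (h : Hyp p Q) {f : G → ℂ}
    (h0 : ∀ l : Q →* ℂˣ, l ≠ 1 → mul l f = 0) (x : Q) : f x = f 1 := by
  classical
  have hab : ∀ a b : Q, a * b = b * a := fun a b => Subtype.ext (h.comm a.2 b.2)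
  have hf : Finite (IrrCharacter Q) := finite_irr
  have : Fintype (IrrCharacter Q) := Fintype.ofFinite _
  have h1 := classFunction_eq_sum (isClass hab (fun x : Q => f x))
  have h2 : ∀ y : Q, f y = classInner (fun x : Q => f x) (linEquiv hab 1 : Q → ℂ) := by
    intro y
    have h3 := congrFun h1 y
    rw [Finset.sum_apply, Finset.sum_eq_single (linEquiv hab 1)] at h3
    · rw [Pi.smul_apply, smul_eq_mul] at h3
      have h6 : (linEquiv hab 1 : Q → ℂ) y = 1 := by
        rw [linEquiv_apply]; simp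
      rw [h6, mul_one] at h3
      exact h3
    · intro χ _ hχ
      obtain ⟨l, rfl⟩ := (linEquiv hab).surjective χ
      have hl : l ≠ 1 := fun h => hχ (by rw [h])
      have h4 := h0 l hl
      rw [Pi.smul_apply, smul_eq_mul]
      have h5 : classInner (fun x : Q => f x) (linEquiv hab l : Q → ℂ) = 0 := h4
      rw [h5, zero_mul]
    · intro h; exact absurd (Finset.mem_univ _) h
  rw [h2 x]
  have := h2 1
  rw [← this]
  rfl

section res

open Classical in
/-- The multiplicity in `Q` of a linear character in an irreducible character of `C`. -/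
theorem res_inner (h : Hyp p Q) [Fintype Q] {η : Subgroup.centralizer (Q : Set G) → ℂ}
    {l l' : Q →* ℂˣ} (hl : Over h η l) :
    classInner (fun x : Q => η ⟨x, h.le x.2⟩) (fun x : Q => (l' x : ℂ)) =
      if l = l' then η 1 else 0 := by
  have h1 : (fun x : Q => η ⟨x, h.le x.2⟩) = η 1 • fun x : Q => (l x : ℂ) := by
    funext x
    have := hl x 1
    rw [mul_one] at this
    rw [this, Pi.smul_apply, smul_eq_mul, mul_comm]
  rw [h1, classInner_smul_left, classInner_irr (Characters.Linear.isIrrCharacter_hom l)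
    (Characters.Linear.isIrrCharacter_hom l')]
  by_cases hll : l = l'
  · subst hll; simp
  · rw [if_neg hll, if_neg, mul_zero]
    intro h2
    apply hll
    ext x
    exact congrFun h2 x

open Classical in
/-- The multiplicity of `l` in a character of `C`, in terms of the irreducible constituents. -/
theorem mul_formula (h : Hyp p Q) [Fintype Q]
    [Fintype (IrrCharacter (Subgroup.centralizer (Q : Set G)))]
    (n : IrrCharacter (Subgroup.centralizer (Q : Set G)) → ℕ)
    (L : IrrCharacter (Subgroup.centralizer (Q : Set G)) → (Q →* ℂˣ))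
    (hL : ∀ η : IrrCharacter (Subgroup.centralizer (Q : Set G)), Over h (η : Subgroup.centralizer (Q : Set G) → ℂ) (L η))
    {f : Subgroup.centralizer (Q : Set G) → ℂ}
    (hf : f = ∑ η : IrrCharacter (Subgroup.centralizer (Q : Set G)),
      n η • (η : Subgroup.centralizer (Q : Set G) → ℂ)) (l : Q →* ℂˣ) :
    classInner (fun x : Q => f ⟨x, h.le x.2⟩) (fun x : Q => (l x : ℂ)) =
      ∑ η : IrrCharacter (Subgroup.centralizer (Q : Set G)),
        if L η = l then (n η : ℂ) * (η : Subgroup.centralizer (Q : Set G) → ℂ) 1 else 0 := by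
  have h1 : (fun x : Q => f ⟨x, h.le x.2⟩) =
      ∑ η : IrrCharacter (Subgroup.centralizer (Q : Set G)),
        (n η : ℂ) • fun x : Q => (η : Subgroup.centralizer (Q : Set G) → ℂ) ⟨x, h.le x.2⟩ := by
    funext x
    rw [hf, Finset.sum_apply, Finset.sum_apply]
    refine Finset.sum_congr rfl fun η _ => ?_
    simp
  rw [h1, classInner_sum_left]
  refine Finset.sum_congr rfl fun η _ => ?_
  rw [classInner_smul_left, res_inner h (hL η)]
  split_ifs <;> simp

open Classical in
/-- If `l` occurs in `f` then some irreducible character of `C` over `l` occurs in `f`, and if it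
does not occur then none does. -/
theorem over_of_mul [Finite G] (h : Hyp p Q) [Fintype Q] [Fintype (Subgroup.centralizer (Q : Set G))]
    {f : Subgroup.centralizer (Q : Set G) → ℂ} (hf : IsCharacter _ f) (l : Q →* ℂˣ) :
    (classInner (fun x : Q => f ⟨x, h.le x.2⟩) (fun x : Q => (l x : ℂ)) ≠ 0 →
      ∃ η : Subgroup.centralizer (Q : Set G) → ℂ, IsIrrCharacter _ η ∧ Over h η l ∧
        ∃ n : ℕ, 0 < n ∧ classInner f η = n) ∧
    (classInner (fun x : Q => f ⟨x, h.le x.2⟩) (fun x : Q => (l x : ℂ)) = 0 →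
      ∀ η : Subgroup.centralizer (Q : Set G) → ℂ, IsIrrCharacter _ η → Over h η l →
        classInner f η = 0) := by
  have hfin : Finite (IrrCharacter (Subgroup.centralizer (Q : Set G))) := finite_irr
  have : Fintype (IrrCharacter (Subgroup.centralizer (Q : Set G))) := Fintype.ofFinite _
  obtain ⟨n, hn⟩ := exists_nat_comb hf
  choose L hL using fun η : IrrCharacter (Subgroup.centralizer (Q : Set G)) =>
    exists_over h η.2
  have key := mul_formula h n L hL hn l
  choose d hdpos hd using fun η : IrrCharacter (Subgroup.centralizer (Q : Set G)) =>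
    isIrr_apply_one η.2
  have hcoef : ∀ η : IrrCharacter (Subgroup.centralizer (Q : Set G)),
      classInner f (η : Subgroup.centralizer (Q : Set G) → ℂ) = n η := by
    intro η
    rw [hn]
    exact classInner_sum_nsmul_irr n η
  constructor
  · intro hne
    rw [key] at hne
    obtain ⟨η, -, hη⟩ := Finset.exists_ne_zero_of_sum_ne_zero hne
    have hLη : L η = l := by
      by_contra hc
      rw [if_neg hc] at hη
      exact hη rfl
    rw [if_pos hLη] at hη
    refine ⟨η, η.2, hLη ▸ hL η, n η, ?_, hcoef η⟩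
    rcases Nat.eq_zero_or_pos (n η) with h0 | h0
    · rw [h0] at hη
      simp at hη
    · exact h0
  · intro h0 η hη hηl
    rw [key] at h0
    have h1 : ((∑ η : IrrCharacter (Subgroup.centralizer (Q : Set G)),
        if L η = l then n η * d η else 0 : ℕ) : ℂ) = 0 := by
      rw [← h0]
      push_cast
      refine Finset.sum_congr rfl fun η _ => ?_
      split_ifs
      · rw [hd η]
      · rfl
    have h2 : (∑ η : IrrCharacter (Subgroup.centralizer (Q : Set G)),
        if L η = l then n η * d η else 0) = 0 := by exact_mod_cast h1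
    rw [Finset.sum_eq_zero_iff] at h2
    have h3 := h2 ⟨η, hη⟩ (Finset.mem_univ _)
    have h4 : L ⟨η, hη⟩ = l :=
      Over.unique h (isIrr_apply_one_ne_zero hη) (hL ⟨η, hη⟩) hηl
    rw [if_pos h4] at h3
    have h5 : n ⟨η, hη⟩ = 0 := by
      rcases Nat.mul_eq_zero.1 h3 with h6 | h6
      · exact h6
      · exact absurd h6 (hdpos ⟨η, hη⟩).ne'
    have h6 := hcoef ⟨η, hη⟩
    rw [h5] at h6
    simpa using h6

end res

end Cfsg.Agent.H603.Mult
end

-- part: H603/Orb
section
/-!
# The action of the normalizer on the nontrivial linear characters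
-/

set_option autoImplicit false

namespace Cfsg.Agent.H603.Orb

open Cfsg Cfsg.Agent.Characters.Core Cfsg.Agent.H603.Cent Cfsg.Agent.H603.Ind
open scoped ComplexConjugate

universe u

variable {G : Type u} [Group G] {p : ℕ} {Q : Subgroup G}

/-- Nontrivial linear characters of `Q`. -/
abbrev Lin (Q : Subgroup G) : Type u := {l : Q →* ℂˣ // l ≠ 1}

theorem comp_ne_one {l : Q →* ℂˣ} (hl : l ≠ 1) (t : Subgroup.normalizer (Q : Set G)) :
    l.comp (cjQ Q t) ≠ 1 := by
  intro h
  apply hl
  ext x
  obtain ⟨y, rfl⟩ := cjQ_surjective t x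
  have := DFunLike.congr_fun h y
  rw [MonoidHom.comp_apply] at this
  rw [this]
  rfl

/-- The action of the normalizer on the nontrivial linear characters. -/
@[reducible] def act (Q : Subgroup G) : MulAction (Subgroup.normalizer (Q : Set G)) (Lin Q) where
  smul t l := ⟨l.1.comp (cjQ Q t), comp_ne_one l.2 t⟩
  one_smul l := by
    apply Subtype.ext
    show l.1.comp (cjQ Q 1) = l.1
    rw [cjQ_one]
    rfl
  mul_smul s t l := by
    apply Subtype.ext
    show l.1.comp (cjQ Q (s * t)) = (l.1.comp (cjQ Q t)).comp (cjQ Q s)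
    rw [MonoidHom.comp_assoc, cjQ_comp]

attribute [local instance] act

theorem smul_coe (t : Subgroup.normalizer (Q : Set G)) (l : Lin Q) :
    ((t • l : Lin Q) : Q →* ℂˣ) = l.1.comp (cjQ Q t) := rfl

variable [Finite G]

theorem mem_stab (h : Hyp p Q) (t : Subgroup.normalizer (Q : Set G)) (l : Lin Q) :
    t ∈ MulAction.stabilizer (Subgroup.normalizer (Q : Set G)) l ↔
      (t : G) ∈ Subgroup.centralizer (Q : Set G) := by
  rw [MulAction.mem_stabilizer_iff]
  constructor
  · intro ht
    by_contra hc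
    apply l.2
    exact h.stab l.1 hc (congrArg Subtype.val ht)
  · intro ht
    apply Subtype.ext
    rw [smul_coe, cjQ_of_mem ht]
    rfl

theorem card_orbit (h : Hyp p Q) (l : Lin Q) :
    Nat.card (MulAction.orbit (Subgroup.normalizer (Q : Set G)) l) *
      Nat.card (Subgroup.centralizer (Q : Set G)) =
      Nat.card (Subgroup.normalizer (Q : Set G)) := by
  have h1 : Nat.card (MulAction.orbit (Subgroup.normalizer (Q : Set G)) l) =
      (MulAction.stabilizer (Subgroup.normalizer (Q : Set G)) l).index := by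
    rw [MulAction.index_stabilizer, Nat.card_coe_set_eq]
  have h2 : Nat.card (Subgroup.centralizer (Q : Set G)) =
      Nat.card (MulAction.stabilizer (Subgroup.normalizer (Q : Set G)) l) :=
    Nat.card_congr ⟨fun c => ⟨⟨c.1, Subgroup.centralizer_le_normalizer _ c.2⟩,
        (mem_stab h _ l).2 c.2⟩,
      fun t => ⟨t.1.1, (mem_stab h _ l).1 t.2⟩, fun _ => rfl, fun _ => rfl⟩
  rw [h1, h2, Subgroup.index_mul_card]

/-- The index of the centralizer in the normalizer. -/
noncomputable def idx (Q : Subgroup G) : ℕ :=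
  Nat.card (Subgroup.normalizer (Q : Set G)) / Nat.card (Subgroup.centralizer (Q : Set G))

theorem idx_mul : idx Q * Nat.card (Subgroup.centralizer (Q : Set G)) =
    Nat.card (Subgroup.normalizer (Q : Set G)) :=
  Nat.div_mul_cancel (Subgroup.card_dvd_of_le (Subgroup.centralizer_le_normalizer _))

theorem card_orbit_eq (h : Hyp p Q) (l : Lin Q) :
    Nat.card (MulAction.orbit (Subgroup.normalizer (Q : Set G)) l) = idx Q := by
  have h1 := card_orbit h l
  rw [← idx_mul] at h1
  exact Nat.eq_of_mul_eq_mul_right Nat.card_pos h1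

omit [Finite G] in
theorem finite_lin [Finite Q] : Finite (Q →* ℂˣ) := by
  have h1 : Finite (IrrCharacter Q) := finite_irr
  refine Finite.of_injective (β := IrrCharacter Q)
    (fun l => ⟨fun x => (l x : ℂ), Characters.Linear.isIrrCharacter_hom l⟩) ?_
  intro a b hab
  have h2 := congrArg Subtype.val hab
  ext x
  exact congrFun h2 x

theorem card_lin (h : Hyp p Q) : Nat.card (Lin Q) + 1 = Nat.card Q := by
  classical
  have : Fintype Q := Fintype.ofFinite _
  have hf : Finite (Q →* ℂˣ) := finite_lin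
  have : Fintype (Q →* ℂˣ) := Fintype.ofFinite _
  rw [← Mult.card_hom (fun a b : Q => Subtype.ext (h.comm a.2 b.2)), Nat.card_eq_fintype_card,
    Nat.card_eq_fintype_card, Fintype.card_subtype_compl, Fintype.card_subtype_eq]
  have : 0 < Fintype.card (Q →* ℂˣ) := Fintype.card_pos
  omega

theorem card_quot (h : Hyp p Q) :
    Nat.card (MulAction.orbitRel.Quotient (Subgroup.normalizer (Q : Set G)) (Lin Q)) * idx Q =
      Nat.card (Lin Q) := by
  classical
  have hf : Finite (Q →* ℂˣ) := finite_lin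
  have : Fintype (MulAction.orbitRel.Quotient (Subgroup.normalizer (Q : Set G)) (Lin Q)) :=
    Fintype.ofFinite _
  rw [Nat.card_congr (MulAction.selfEquivSigmaOrbits (Subgroup.normalizer (Q : Set G)) (Lin Q)),
    Nat.card_sigma]
  rw [Finset.sum_congr rfl fun ω _ => card_orbit_eq h ω.out, Finset.sum_const, Finset.card_univ,
    Nat.card_eq_fintype_card, smul_eq_mul]

end Cfsg.Agent.H603.Orb
end

-- part: H603/Comb
section
/-!
# An impossible configuration of generalized characters
-/

set_option autoImplicit false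

namespace Cfsg.Agent.H603.Comb

open Cfsg Cfsg.Agent.Characters.Core
open scoped ComplexConjugate

universe u

variable {G : Type u} [Group G] [Fintype G]

open Classical in
/-- A coherent family of differences together with a short generalized character. -/
theorem no_config {J : Type*} [Fintype J] (j1 j2 j0 : J) (h12 : j2 ≠ j1) (h10 : j0 ≠ j1)
    (h02 : j0 ≠ j2) (B : J → G → ℂ) (hB : ∀ j, j ≠ j1 → IsGeneralizedCharacter G (B j))
    (hB1 : ∀ j, j ≠ j1 → B j 1 = 0) (hBn : ∀ j, j ≠ j1 → classInner (B j) (B j) = 2)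
    (hBB : ∀ j k, j ≠ j1 → k ≠ j1 → j ≠ k → classInner (B j) (B k) = 1)
    (hBone : ∀ j, j ≠ j1 → classInner (B j) 1 = 0)
    {ψ : G → ℂ} (hψ : IsIrrCharacter G ψ)
    (k : ℕ) (hk : 0 < k) (hψ0 : classInner (B j0) ψ = k)
    (hψ2 : classInner (B j2) ψ = 0)
    {α : G → ℂ} (hα1 : α 1 = 0)
    (hαone : classInner α 1 = 1) (c : ℂ) (hαB : ∀ j, j ≠ j1 → classInner α (B j) = c)
    (a : ℕ) (ha : 0 < a) (hαψ : classInner α ψ = a)
    (n : ℕ) (hαn : classInner α α = n) (hnJ : n ≤ Fintype.card J) : False := by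
  -- step one
  obtain ⟨ψ', ψ1, hψ', hψ1, hne01, hB0⟩ :=
    OddOrderCharacters.NormTwo.exists_sub_of_norm_two (hB j0 h10) (hBn j0 h10) (hB1 j0 h10)
  have e0 : ψ' = ψ := by
    by_contra hne
    rw [hB0, classInner_sub_left, classInner_irr_ne hψ' hψ hne, classInner_irr hψ1 hψ] at hψ0
    split_ifs at hψ0 with h
    · have h1 : ((k + 1 : ℕ) : ℂ) = 0 := by push_cast; rw [← hψ0]; ring
      have h2 : k + 1 = 0 := by exact_mod_cast h1
      omega
    · have h1 : ((k : ℕ) : ℂ) = 0 := by rw [← hψ0]; ring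
      have h2 : k = 0 := by exact_mod_cast h1
      omega
  subst e0
  -- step two
  have h2 : ∃ ψ2 : G → ℂ, IsIrrCharacter G ψ2 ∧ ψ2 ≠ ψ1 ∧ ψ2 ≠ ψ' ∧ B j2 = ψ2 - ψ1 := by
    obtain ⟨X, Y, hX, hY, hXY, hBj⟩ :=
      OddOrderCharacters.NormTwo.exists_sub_of_norm_two (hB j2 h12) (hBn j2 h12) (hB1 j2 h12)
    have e1 := hBB j2 j0 h12 h10 (Ne.symm h02)
    rw [hBj, hB0, classInner_sub_left, classInner_sub_right, classInner_sub_right,
      classInner_irr hX hψ', classInner_irr hX hψ1, classInner_irr hY hψ',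
      classInner_irr hY hψ1] at e1
    rw [hBj, classInner_sub_left, classInner_irr hX hψ', classInner_irr hY hψ'] at hψ2
    have hXn : X ≠ ψ' := by
      rintro rfl
      rw [if_pos rfl, if_neg (Ne.symm hXY)] at hψ2
      norm_num at hψ2
    have hYn : Y ≠ ψ' := by
      rintro rfl
      rw [if_pos rfl, if_neg hXY] at hψ2
      norm_num at hψ2
    have hY1 : Y = ψ1 := by
      by_contra hne
      rw [if_neg hXn, if_neg hYn, if_neg hne] at e1
      split_ifs at e1 <;> norm_num at e1
    subst hY1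
    exact ⟨X, hX, hXY, hXn, hBj⟩
  obtain ⟨ψ2, hψ2i, hne21, hne20, hB2⟩ := h2
  -- step three
  have h3 : ∀ j, j ≠ j1 → ∃ ψj : G → ℂ, IsIrrCharacter G ψj ∧ ψj ≠ ψ1 ∧ B j = ψj - ψ1 := by
    intro j hj
    by_cases hj0 : j = j0
    · subst hj0; exact ⟨ψ', hψ', hne01, hB0⟩
    by_cases hj2 : j = j2
    · subst hj2; exact ⟨ψ2, hψ2i, hne21, hB2⟩
    obtain ⟨X, Y, hX, hY, hXY, hBj⟩ :=
      OddOrderCharacters.NormTwo.exists_sub_of_norm_two (hB j hj) (hBn j hj) (hB1 j hj)
    have e1 := hBB j j0 hj h10 hj0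
    have e2 := hBB j j2 hj h12 hj2
    rw [hBj, hB0, classInner_sub_left, classInner_sub_right, classInner_sub_right,
      classInner_irr hX hψ', classInner_irr hX hψ1, classInner_irr hY hψ',
      classInner_irr hY hψ1] at e1
    rw [hBj, hB2, classInner_sub_left, classInner_sub_right, classInner_sub_right,
      classInner_irr hX hψ2i, classInner_irr hX hψ1, classInner_irr hY hψ2i,
      classInner_irr hY hψ1] at e2
    by_cases hY1 : Y = ψ1
    · subst hY1
      exact ⟨X, hX, hXY, hBj⟩
    · exfalso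
      rw [if_neg hY1] at e1 e2
      by_cases hX1 : X = ψ1
      · subst hX1
        rw [if_pos rfl, if_neg (Ne.symm hne01)] at e1
        split_ifs at e1 <;> norm_num at e1
      · rw [if_neg hX1] at e1 e2
        by_cases hX0 : X = ψ'
        · subst hX0
          rw [if_neg (Ne.symm hne20)] at e2
          split_ifs at e2 <;> norm_num at e2
        · rw [if_neg hX0] at e1
          split_ifs at e1 <;> norm_num at e1
  choose f hf using h3
  -- the family, extended by `ψ1`
  let F : J → G → ℂ := fun j => if hj : j = j1 then ψ1 else f j hj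
  have hFj : ∀ j, ∀ hj : j ≠ j1, F j = f j hj := fun j hj => dif_neg hj
  have hFirr : ∀ j, j ≠ j1 → IsIrrCharacter G (F j) := fun j hj => by
    rw [hFj j hj]; exact (hf j hj).1
  have hFB : ∀ j, j ≠ j1 → B j = F j - ψ1 := fun j hj => by
    rw [hFj j hj]; exact (hf j hj).2.2
  have hF1 : ∀ j, j ≠ j1 → F j ≠ ψ1 := fun j hj => by
    rw [hFj j hj]; exact (hf j hj).2.1
  have hFne : ∀ j k, j ≠ j1 → k ≠ j1 → j ≠ k → F j ≠ F k := by
    intro j k hj hk hjk hjk'
    have e1 := hBB j k hj hk hjk
    rw [hFB j hj, hFB k hk, hjk'] at e1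
    have e2 := hBn k hk
    rw [hFB k hk] at e2
    rw [e1] at e2
    norm_num at e2
  have hα' : ∀ j, j ≠ j1 → classInner α (F j) = a := by
    intro j hj
    have e1 := hαB j hj
    have e2 := hαB j0 h10
    rw [hFB j hj, classInner_sub_right] at e1
    rw [hB0, classInner_sub_right, hαψ] at e2
    linear_combination e1 - e2
  have hF11 : ∀ j, j ≠ j1 → F j ≠ 1 := by
    intro j hj h1
    have e1 := hBone j hj
    rw [hFB j hj, classInner_sub_left, h1, classInner_irr_self isIrr_one,
      classInner_irr hψ1 isIrr_one] at e1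
    split_ifs at e1 with h2
    · exact hF1 j hj (h1.trans h2.symm)
    · norm_num at e1
  -- the sum
  set T := Finset.univ.erase j1 with hT
  have hTcard : T.card + 1 = Fintype.card J := by
    rw [hT, Finset.card_erase_of_mem (Finset.mem_univ _), Finset.card_univ]
    have : 0 < Fintype.card J := Fintype.card_pos_iff.2 ⟨j1⟩
    omega
  have hTm : ∀ j ∈ T, j ≠ j1 := fun j hj => Finset.ne_of_mem_erase hj
  set S : G → ℂ := 1 + ∑ j ∈ T, F j with hS
  have hSS : classInner S S = 1 + T.card := by
    rw [hS, classInner_add_left, classInner_add_right, classInner_add_right,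
      classInner_irr_self isIrr_one, classInner_sum_right, classInner_sum_left,
      classInner_sum_left]
    have e1 : ∑ j ∈ T, classInner (1 : G → ℂ) (F j) = 0 :=
      Finset.sum_eq_zero fun j hj => classInner_irr_ne isIrr_one (hFirr j (hTm j hj))
        (Ne.symm (hF11 j (hTm j hj)))
    have e2 : ∑ j ∈ T, classInner (F j) (1 : G → ℂ) = 0 :=
      Finset.sum_eq_zero fun j hj => classInner_irr_ne (hFirr j (hTm j hj)) isIrr_one
        (hF11 j (hTm j hj))
    have e3 : ∑ i ∈ T, classInner (F i) (∑ j ∈ T, F j) = ∑ i ∈ T, (1 : ℂ) := by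
      refine Finset.sum_congr rfl fun i hi => ?_
      rw [classInner_sum_right, Finset.sum_eq_single i]
      · exact classInner_irr_self (hFirr i (hTm i hi))
      · intro j hj hji
        exact classInner_irr_ne (hFirr i (hTm i hi)) (hFirr j (hTm j hj))
          (hFne i j (hTm i hi) (hTm j hj) (Ne.symm hji))
      · intro h; exact absurd hi h
    rw [e1, e2, e3]
    simp
  have hαS : classInner α S = 1 + T.card * a := by
    rw [hS, classInner_add_right, hαone, classInner_sum_right]
    congr 1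
    rw [Finset.sum_congr rfl fun j hj => hα' j (hTm j hj), Finset.sum_const, nsmul_eq_mul]
  have hSα : classInner S α = 1 + T.card * a := by
    rw [← classInner_conj_symm, hαS]
    simp
  have hnorm : classInner (α - S) (α - S) =
      ((n : ℝ) - 2 * (1 + T.card * a) + (1 + T.card) : ℝ) := by
    rw [classInner_sub_left, classInner_sub_right, classInner_sub_right, hαn, hαS, hSα, hSS]
    push_cast
    ring
  have hnn := OddOrderCharacters.VChar.classInner_self_re_nonneg (α - S)
  rw [hnorm, Complex.ofReal_re] at hnn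
  have hna : (n : ℝ) ≤ 1 + T.card := by
    have : n ≤ 1 + T.card := by omega
    exact_mod_cast this
  have haT : (T.card : ℝ) ≤ T.card * a := by
    have : T.card ≤ T.card * a := Nat.le_mul_of_pos_right _ ha
    exact_mod_cast this
  have hzero : ((n : ℝ) - 2 * (1 + T.card * a) + (1 + T.card) : ℝ) = 0 := by
    apply le_antisymm _ hnn
    linarith
  rw [hzero, Complex.ofReal_zero] at hnorm
  have hαS' : α = S := by
    have := classInner_self_eq_zero hnorm
    exact sub_eq_zero.1 this
  have hS1 : S 1 = 0 := by rw [← hαS', hα1]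
  have hd : ∀ j ∈ T, ∃ d : ℕ, F j 1 = d := by
    intro j hj
    obtain ⟨d, -, hd⟩ := isIrr_apply_one (hFirr j (hTm j hj))
    exact ⟨d, hd⟩
  choose d hd using hd
  have hS1' : S 1 = ((1 + ∑ j ∈ T.attach, d j.1 j.2 : ℕ) : ℂ) := by
    rw [hS, Pi.add_apply, Finset.sum_apply, Pi.one_apply]
    push_cast
    congr 1
    rw [← Finset.sum_attach]
    exact Finset.sum_congr rfl fun j _ => hd j.1 j.2
  rw [hS1'] at hS1
  have : 1 + ∑ j ∈ T.attach, d j.1 j.2 = 0 := by exact_mod_cast hS1
  omega

end Cfsg.Agent.H603.Comb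
end

-- part: H603/Main
section
/-!
# Small irreducible characters under the uniform centralizer condition
-/

set_option autoImplicit false

namespace Cfsg.Agent.H603.Main

open Cfsg Cfsg.Agent.Characters.Core Cfsg.Agent.H603.Cent Cfsg.Agent.H603.Ind
  Cfsg.Agent.H603.Mult Cfsg.Agent.H603.Orb
open scoped ComplexConjugate

universe u

variable {G : Type u} [Group G] {p : ℕ}

attribute [local instance] act

open Classical in
/-- Counting: the index `e` of `C` in `N` is at most the degree `x`, and more than `e` nontrivial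
linear characters of `Q` are missing in `χ χ̄`. -/
theorem count [Fintype G] {Q : Subgroup G} (h : Hyp p Q) [Fintype Q] [Fintype (Q →* ℂˣ)]
    {χ : G → ℂ} (hχ : IsCharacter G χ)
    (x : ℕ) (hx : χ 1 = x) (hdeg : x ^ 2 + 1 < Nat.card Q)
    (m M : (Q →* ℂˣ) → ℕ) (hm : ∀ l, mul l χ = m l)
    (hM : ∀ l, mul l (fun g => χ g * conj (χ g)) = M l)
    (l0 : Lin Q) (hl0 : 0 < m l0.1) :
    idx Q ≤ x ∧ idx Q < (Finset.univ.filter fun l : Lin Q => M l.1 = 0).card := by
  have hcl := isCharacter_isClassFunction hχ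
  -- sums
  have e1 : x = ∑ l, m l := by
    have h1 := mul_sum h χ
    rw [hx, Finset.sum_congr rfl fun l _ => hm l] at h1
    exact_mod_cast h1
  have e2 : x ^ 2 = ∑ l, M l := by
    have h1 := mul_sum h (fun g => χ g * conj (χ g))
    rw [Finset.sum_congr rfl fun l _ => hM l] at h1
    have h2 : χ 1 * conj (χ 1) = ((x ^ 2 : ℕ) : ℂ) := by
      rw [hx, Complex.conj_natCast]; push_cast; ring
    rw [h2] at h1
    exact_mod_cast h1
  have e3 : M 1 = ∑ l, m l ^ 2 := by
    have h1 := mul_norm h χ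
    rw [hM 1, Finset.sum_congr rfl fun l _ => by rw [hm l, Complex.conj_natCast]] at h1
    have h2 : (M 1 : ℂ) = ((∑ l, m l ^ 2 : ℕ) : ℂ) := by
      rw [h1]; push_cast
      exact Finset.sum_congr rfl fun l _ => by ring
    exact_mod_cast h2
  -- the orbit of `l0`
  set O := Finset.univ.filter fun l : Lin Q =>
    l ∈ MulAction.orbit (Subgroup.normalizer (Q : Set G)) l0 with hO
  have hOcard : O.card = idx Q := by
    rw [← card_orbit_eq h l0, hO, ← Fintype.card_subtype, ← Nat.card_eq_fintype_card]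
  have hOm : ∀ l ∈ O, 1 ≤ m l.1 := by
    intro l hl
    rw [hO, Finset.mem_filter] at hl
    obtain ⟨t, ht⟩ := hl.2
    have h1 : l.1 = l0.1.comp (cjQ Q t) := by
      rw [← ht]; rfl
    have h2 := mul_conj hcl t l0.1
    rw [← h1, hm, hm] at h2
    have h3 : m l.1 = m l0.1 := by exact_mod_cast h2
    omega
  have hsum1 : idx Q ≤ ∑ l : Lin Q, m l.1 := by
    calc idx Q = ∑ l ∈ O, 1 := by rw [Finset.sum_const, smul_eq_mul, mul_one, hOcard]
      _ ≤ ∑ l ∈ O, m l.1 := Finset.sum_le_sum hOm
      _ ≤ ∑ l : Lin Q, m l.1 := Finset.sum_le_sum_of_subset (Finset.subset_univ _)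
  have hsum2 : idx Q ≤ ∑ l : Lin Q, m l.1 ^ 2 := by
    calc idx Q = ∑ l ∈ O, 1 := by rw [Finset.sum_const, smul_eq_mul, mul_one, hOcard]
      _ ≤ ∑ l ∈ O, m l.1 ^ 2 := Finset.sum_le_sum fun l hl => Nat.one_le_pow _ _ (hOm l hl)
      _ ≤ ∑ l : Lin Q, m l.1 ^ 2 := Finset.sum_le_sum_of_subset (Finset.subset_univ _)
  have s1 : ∑ l, m l = m 1 + ∑ l : Lin Q, m l.1 := by
    convert Fintype.sum_eq_add_sum_subtype_ne m 1
  have s2 : ∑ l, m l ^ 2 = m 1 ^ 2 + ∑ l : Lin Q, m l.1 ^ 2 := by
    convert Fintype.sum_eq_add_sum_subtype_ne (fun l => m l ^ 2) 1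
  have s3 : ∑ l, M l = M 1 + ∑ l : Lin Q, M l.1 := by
    convert Fintype.sum_eq_add_sum_subtype_ne M 1
  refine ⟨?_, ?_⟩
  · rw [e1, s1]; omega
  · have h1 : idx Q ≤ M 1 := by
      rw [e3, s2]
      exact hsum2.trans (Nat.le_add_left _ _)
    -- the occurring characters
    have h2 : (Finset.univ.filter fun l : Lin Q => ¬ M l.1 = 0).card ≤ ∑ l : Lin Q, M l.1 := by
      calc (Finset.univ.filter fun l : Lin Q => ¬ M l.1 = 0).card =
            ∑ l ∈ Finset.univ.filter (fun l : Lin Q => ¬ M l.1 = 0), 1 := by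
            rw [Finset.sum_const, smul_eq_mul, mul_one]
        _ ≤ ∑ l ∈ Finset.univ.filter (fun l : Lin Q => ¬ M l.1 = 0), M l.1 := by
            refine Finset.sum_le_sum fun l hl => ?_
            rw [Finset.mem_filter] at hl
            omega
        _ ≤ ∑ l : Lin Q, M l.1 := Finset.sum_le_sum_of_subset (Finset.subset_univ _)
    have h3 := Finset.card_filter_add_card_filter_not (s := (Finset.univ : Finset (Lin Q)))
      (fun l => M l.1 = 0)
    have h4 := card_lin h
    rw [Nat.card_eq_fintype_card, ← Finset.card_univ] at h4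
    omega

open Classical in
/-- The contradiction. -/
theorem core [Fintype G] [hp : Fact p.Prime] {Q : Subgroup G} (h : Hyp p Q)
    (E : (Q →* ℂˣ) →* (Subgroup.centralizer (Q : Set G) →* ℂˣ))
    (hE1 : ∀ l (x : Q), E l ⟨x, h.le x.2⟩ = l x)
    (hE2 : ∀ l (c : Subgroup.centralizer (Q : Set G)), ¬ p ∣ orderOf c → E l c = 1)
    [Fintype (Subgroup.centralizer (Q : Set G))]
    {χ ψ ξ : G → ℂ} (hχ : IsCharacter G χ) (hψ : IsIrrCharacter G ψ) (hξ : IsCharacter G ξ)
    (hsum : (fun g => χ g * conj (χ g)) = ψ + ξ)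
    (x : ℕ) (hx : χ 1 = x) (hdeg : x ^ 2 + 1 < Nat.card Q)
    (hχQ : ∃ y : Q, χ y ≠ χ 1) (hψQ : ∃ y : Q, ψ y ≠ ψ 1)
    (a : ℕ) (ha : 0 < a)
    (hψ1 : classInner (1 : Subgroup.centralizer (Q : Set G) → ℂ)
        (fun c : Subgroup.centralizer (Q : Set G) => ψ c) = a) : False := by
  have hfl : Finite (Q →* ℂˣ) := finite_lin
  have : Fintype (Q →* ℂˣ) := Fintype.ofFinite _
  have : Fintype Q := Fintype.ofFinite _
  have : Fintype (Subgroup.normalizer (Q : Set G)) := Fintype.ofFinite _
  have hψc := isIrr_isCharacter hψ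
  have hΦc : IsCharacter G (fun g => χ g * conj (χ g)) :=
    isCharacter_mul hχ (isCharacter_conj hχ)
  choose m hm using fun l : Q →* ℂˣ => mul_nat l hχ
  choose M hM using fun l : Q →* ℂˣ => mul_nat l hΦc
  choose m' hm' using fun l : Q →* ℂˣ => mul_nat l hψc
  choose m'' hm'' using fun l : Q →* ℂˣ => mul_nat l hξ
  have hle : ∀ l, m' l ≤ M l := by
    intro l
    have h1 : mul l (fun g => χ g * conj (χ g)) = mul l ψ + mul l ξ := by
      rw [hsum]
      exact classInner_add_left (fun x : Q => ψ x) (fun x : Q => ξ x) _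
    rw [hM, hm', hm''] at h1
    have h2 : M l = m' l + m'' l := by exact_mod_cast h1
    omega
  -- nontrivial linear characters occurring in `χ`, `ψ`
  have hex : ∀ {f : G → ℂ} (n : (Q →* ℂˣ) → ℕ), (∀ l, mul l f = n l) →
      (∃ y : Q, f y ≠ f 1) → ∃ l : Lin Q, 0 < n l.1 := by
    intro f n hn hy
    by_contra hcon
    push Not at hcon
    obtain ⟨y, hy⟩ := hy
    apply hy
    apply const_of_mul h
    intro l hl
    have := hcon ⟨l, hl⟩
    rw [hn l]
    have h0 : n l = 0 := by simpa using this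
    rw [h0]; simp
  obtain ⟨l0, hl0⟩ := hex m hm hχQ
  obtain ⟨l3, hl3⟩ := hex m' hm' hψQ
  obtain ⟨hidx, hZ⟩ := count h hχ x hx hdeg m M hm hM l0 hl0
  set Z := Finset.univ.filter fun l : Lin Q => M l.1 = 0 with hZdef
  have hZpos : 0 < Z.card := by omega
  obtain ⟨l1, hl1⟩ := Finset.card_pos.1 hZpos
  have hO1 : (Finset.univ.filter fun l : Lin Q =>
      l ∈ MulAction.orbit (Subgroup.normalizer (Q : Set G)) l1).card < Z.card := by
    refine lt_of_eq_of_lt ?_ hZ
    rw [← card_orbit_eq h l1, ← Fintype.card_subtype, ← Nat.card_eq_fintype_card]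
  obtain ⟨l2, hl2, hl2'⟩ := Finset.exists_mem_notMem_of_card_lt_card hO1
  rw [Finset.mem_filter] at hl1 hl2 hl2'
  -- orbits
  let J := MulAction.orbitRel.Quotient (Subgroup.normalizer (Q : Set G)) (Lin Q)
  have : Fintype J := Fintype.ofFinite _
  let cl : Lin Q → J := fun l => Quotient.mk _ l
  let r : J → Lin Q := fun j => Quotient.out j
  have hclr : ∀ j, cl (r j) = j := fun j => Quotient.out_eq j
  have hcl : ∀ a b : Lin Q, cl a = cl b ↔
      a ∈ MulAction.orbit (Subgroup.normalizer (Q : Set G)) b := fun a b => Quotient.eq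
  have hinv : ∀ {f : G → ℂ} (n : (Q →* ℂˣ) → ℕ), IsClassFunction G f → (∀ l, mul l f = n l) →
      ∀ a b : Lin Q, cl a = cl b → n a.1 = n b.1 := by
    intro f n hf hn a b hab
    obtain ⟨t, ht⟩ := (hcl a b).1 hab
    have h1 : a.1 = b.1.comp (cjQ Q t) := by
      rw [← ht]; rfl
    have h2 := mul_conj hf t b.1
    rw [← h1, hn, hn] at h2
    exact_mod_cast h2
  have hnc : ∀ j k : J, j ≠ k → ∀ t : Subgroup.normalizer (Q : Set G),
      (r k).1.comp (cjQ Q t) ≠ (r j).1 := by
    intro j k hjk t ht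
    apply hjk
    rw [← hclr j, ← hclr k]
    exact (hcl _ _).2 ⟨t, Subtype.ext ht⟩
  set j0 := cl l3 with hj0
  set j1 := cl l1 with hj1
  set j2 := cl l2 with hj2
  have hMr1 : M (r j1).1 = 0 := by
    rw [hinv M (isCharacter_isClassFunction hΦc) hM (r j1) l1 (hclr j1)]
    exact hl1.2
  have hMr2 : M (r j2).1 = 0 := by
    rw [hinv M (isCharacter_isClassFunction hΦc) hM (r j2) l2 (hclr j2)]
    exact hl2.2
  have hm1 : m' (r j1).1 = 0 := Nat.le_zero.1 (hMr1 ▸ hle _)
  have hm2 : m' (r j2).1 = 0 := Nat.le_zero.1 (hMr2 ▸ hle _)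
  have hm0 : 0 < m' (r j0).1 := by
    rw [hinv m' (isCharacter_isClassFunction hψc) hm' (r j0) l3 (hclr j0)]
    exact hl3
  have h12 : j2 ≠ j1 := by
    intro h1
    apply hl2'
    exact ⟨Finset.mem_univ _, (hcl l2 l1).1 h1⟩
  have h10 : j0 ≠ j1 := by
    intro h1
    rw [h1] at hm0; omega
  have h02 : j0 ≠ j2 := by
    intro h1
    rw [h1] at hm0; omega
  -- the character `η`
  have hψC : IsCharacter (Subgroup.centralizer (Q : Set G))
      (fun c : Subgroup.centralizer (Q : Set G) => ψ c) :=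
    isCharacter_comp (Subgroup.centralizer (Q : Set G)).subtype hψc
  have hover := fun l => over_of_mul h hψC l
  have hmul' : ∀ l : Q →* ℂˣ, classInner (fun x : Q =>
      (fun c : Subgroup.centralizer (Q : Set G) => ψ c) ⟨x, h.le x.2⟩)
        (fun x : Q => (l x : ℂ)) = m' l := fun l => hm' l
  obtain ⟨η, hη, hηo, k, hk, hηk⟩ := (hover (r j0).1).1 (by
    rw [hmul']
    exact_mod_cast hm0.ne')
  have hmiss1 := (hover (r j1).1).2 (by rw [hmul', hm1]; simp)
  have hmiss2 := (hover (r j2).1).2 (by rw [hmul', hm2]; simp)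
  -- the family
  let θ : J → (Subgroup.centralizer (Q : Set G) → ℂ) :=
    fun j c => η c * E ((r j0).1⁻¹ * (r j).1) c
  have hθirr : ∀ j, IsIrrCharacter _ (θ j) := fun j => isIrr_mul_hom hη _
  have hθover : ∀ j, Over h (θ j) (r j).1 := by
    intro j
    have h1 := Over.mul h hηo (E ((r j0).1⁻¹ * (r j).1)) (fun x => hE1 _ x)
    have h2 : (r j0).1 * ((r j0).1⁻¹ * (r j).1) = (r j).1 := by
      ext x
      simp
    rwa [h2] at h1
  have hθ0 : θ j0 = η := by
    funext c
    show η c * E ((r j0).1⁻¹ * (r j0).1) c = η c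
    have h2 : (r j0).1⁻¹ * (r j0).1 = 1 := by
      ext x
      simp
    rw [h2, map_one]
    simp
  have hθs : ∀ j k, PSing p (θ j - θ k) := by
    intro j k c hc
    show η c * E ((r j0).1⁻¹ * (r j).1) c - η c * E ((r j0).1⁻¹ * (r k).1) c = 0
    rw [hE2 _ c hc, hE2 _ c hc, sub_self]
  have hg : ∀ j k, Gam Q (θ j) (θ k) = if j = k then 1 else 0 := by
    intro j k
    split_ifs with hjk
    · subst hjk
      rw [Gam_same h (hθirr j) (hθirr j) (hθover j) (hθover j) (r j).2, if_pos rfl]
    · exact Gam_eq_zero h (hθirr j) (hθirr k) (hθover j) (hθover k) (hnc j k hjk)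
  -- the linear character `ε` over `r j1`
  let ε : Subgroup.centralizer (Q : Set G) → ℂ := fun c => (E (r j1).1 c : ℂ)
  have hεirr : IsIrrCharacter _ ε := Characters.Linear.isIrrCharacter_hom _
  have hεover : Over h ε (r j1).1 := Over.of_hom h _ (fun x => hE1 _ x)
  have hεs : PSing p (1 - ε) := by
    intro c hc
    show (1 : ℂ) - (E (r j1).1 c : ℂ) = 0
    rw [hE2 _ c hc]
    simp
  have hone : Over h (1 : Subgroup.centralizer (Q : Set G) → ℂ) 1 := by
    intro x c
    simp
  have hoirr : IsIrrCharacter (Subgroup.centralizer (Q : Set G)) 1 := isIrr_one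
  have g1 : ∀ k, Gam Q 1 (θ k) = 0 := fun k =>
    Gam_eq_zero h hoirr (hθirr k) hone (hθover k) (fun t => comp_ne_one (r k).2 t)
  have g2 : ∀ k, k ≠ j1 → Gam Q ε (θ k) = 0 := fun k hk =>
    Gam_eq_zero h hεirr (hθirr k) hεover (hθover k) (hnc j1 k (Ne.symm hk))
  have g3 : Gam Q 1 ε = 0 :=
    Gam_eq_zero h hoirr hεirr hone hεover (fun t => comp_ne_one (r j1).2 t)
  have g4 : Gam Q ε 1 = 0 :=
    Gam_eq_zero h hεirr hoirr hεover hone (fun t ht => (r j1).2 (by
      rw [← ht]; rfl))
  have g5 : Gam Q ε ε = 1 := by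
    rw [Gam_same h hεirr hεirr hεover hεover (r j1).2, if_pos rfl]
  have g6 : Gam Q (1 : Subgroup.centralizer (Q : Set G) → ℂ) 1 = idx Q := by
    rw [Gam_one, ← idx_mul]
    have : (Nat.card (Subgroup.centralizer (Q : Set G)) : ℂ) ≠ 0 := by
      exact_mod_cast Nat.card_pos.ne'
    push_cast
    field_simp
  have hcardJ : idx Q + 1 ≤ Fintype.card J := by
    have h1 := card_quot h
    have h2 := card_lin h
    rw [Nat.card_eq_fintype_card] at h1
    have h3 : idx Q * idx Q < Fintype.card J * idx Q := by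
      rw [h1]
      have h4 : idx Q * idx Q ≤ x ^ 2 := by rw [sq]; exact Nat.mul_le_mul hidx hidx
      omega
    exact Nat.lt_of_mul_lt_mul_right h3
  have hψcl := isCharacter_isClassFunction hψc
  have frob : ∀ φ : Subgroup.centralizer (Q : Set G) → ℂ,
      classInner (indFun (Subgroup.centralizer (Q : Set G)) φ) ψ =
        classInner φ (fun c : Subgroup.centralizer (Q : Set G) => ψ c) := fun φ =>
    CharactersDeep.IndFun.classInner_indFun _ _ _ hψcl
  have frob1 : ∀ φ : Subgroup.centralizer (Q : Set G) → ℂ,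
      classInner (indFun (Subgroup.centralizer (Q : Set G)) φ) 1 = classInner φ 1 := fun φ =>
    CharactersDeep.IndFun.classInner_indFun _ _ _
      (isCharacter_isClassFunction isCharacter_one)
  have hne1 : ∀ j, classInner (θ j) 1 = 0 := by
    intro j
    apply classInner_irr_ne (hθirr j) hoirr
    intro h1
    apply (r j).2
    have h2 := hθover j
    rw [h1] at h2
    exact Over.unique h one_ne_zero h2 hone
  have hconj0 : ∀ φ : Subgroup.centralizer (Q : Set G) → ℂ,
      classInner (fun c : Subgroup.centralizer (Q : Set G) => ψ c) φ = 0 →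
      classInner φ (fun c : Subgroup.centralizer (Q : Set G) => ψ c) = 0 := by
    intro φ hφ
    rw [← classInner_conj_symm, hφ, map_zero]
  refine Comb.no_config j1 j2 j0 h12 h10 h02
    (fun j => indFun (Subgroup.centralizer (Q : Set G)) (θ j - θ j1)) ?_ ?_ ?_ ?_ ?_ hψ k hk ?_ ?_
    (α := indFun (Subgroup.centralizer (Q : Set G)) (1 - ε)) ?_ ?_ (Gam Q ε (θ j1)) ?_ a ha ?_
    (idx Q + 1) ?_ hcardJ
  · intro j _
    exact gen_ind _ (OddOrderCharacters.VChar.gen_sub
      (OddOrderCharacters.VChar.gen_of_irr (hθirr j))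
      (OddOrderCharacters.VChar.gen_of_irr (hθirr j1)))
  · intro j _
    apply indFun_one
    apply hθs j j1
    rw [orderOf_one]
    exact hp.1.one_lt.ne' ∘ Nat.dvd_one.1
  · intro j hj
    show classInner (indFun _ (θ j - θ j1)) (indFun _ (θ j - θ j1)) = 2
    rw [inner_ind h (hθs j j1), Gam_sub_left, Gam_sub_right, Gam_sub_right, hg, hg, hg, hg,
      if_pos rfl, if_neg hj, if_neg (Ne.symm hj), if_pos rfl]
    norm_num
  · intro j k hj hk hjk
    show classInner (indFun _ (θ j - θ j1)) (indFun _ (θ k - θ j1)) = 1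
    rw [inner_ind h (hθs k j1), Gam_sub_left, Gam_sub_right, Gam_sub_right, hg, hg, hg, hg,
      if_pos rfl, if_neg hj, if_neg (Ne.symm hk), if_neg hjk]
    norm_num
  · intro j _
    show classInner (indFun _ (θ j - θ j1)) 1 = 0
    rw [frob1, classInner_sub_left, hne1, hne1, sub_zero]
  · show classInner (indFun _ (θ j0 - θ j1)) ψ = k
    rw [frob, classInner_sub_left, hθ0, hconj0 _ (hmiss1 _ (hθirr j1) (hθover j1)),
      ← classInner_conj_symm, hηk]
    simp
  · show classInner (indFun _ (θ j2 - θ j1)) ψ = 0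
    rw [frob, classInner_sub_left, hconj0 _ (hmiss1 _ (hθirr j1) (hθover j1)),
      hconj0 _ (hmiss2 _ (hθirr j2) (hθover j2)), sub_zero]
  · apply indFun_one
    apply hεs
    rw [orderOf_one]
    exact hp.1.one_lt.ne' ∘ Nat.dvd_one.1
  · rw [frob1, classInner_sub_left, classInner_irr_self hoirr]
    have h1 : classInner ε (1 : Subgroup.centralizer (Q : Set G) → ℂ) = 0 := by
      apply classInner_irr_ne hεirr hoirr
      intro h1
      apply (r j1).2
      have h2 := hεover
      rw [h1] at h2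
      exact Over.unique h one_ne_zero h2 hone
    rw [h1, sub_zero]
  · intro j hj
    show classInner (indFun _ (1 - ε)) (indFun _ (θ j - θ j1)) = _
    rw [inner_ind h (hθs j j1), Gam_sub_left, Gam_sub_right, Gam_sub_right, g1, g1, g2 j hj]
    ring
  · rw [frob, classInner_sub_left, hψ1, hconj0 _ (hmiss1 _ hεirr hεover), sub_zero]
  · rw [inner_ind h hεs, Gam_sub_left, Gam_sub_right, Gam_sub_right, g3, g4, g5, g6]
    push_cast
    ring

end Cfsg.Agent.H603.Main
end

-- part: H603/Final
section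
/-!
# Normal subgroups from small irreducible characters
-/

set_option autoImplicit false

namespace Cfsg.Agent.H603.Final

open Cfsg Cfsg.Agent.Characters.Core Cfsg.Agent.H603.Cent Cfsg.Agent.H603.Ind
open scoped ComplexConjugate

universe u

variable {G : Type u} [Group G] {p : ℕ}

/-- The kernel of a character. -/
theorem exists_ker [Finite G] {χ : G → ℂ} (hχ : IsCharacter G χ) (H : Subgroup G)
    (hH : ∀ y ∈ H, χ y = χ 1) (hne : ∃ g, χ g ≠ χ 1) :
    ∃ K : Subgroup G, K.Normal ∧ K ≠ ⊤ ∧ H ≤ K := by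
  obtain ⟨n, ρ, rfl⟩ := hχ
  have h1 : ∀ g, ρ.character g = ρ.character 1 ↔ g ∈ ρ.ker := by
    intro g
    rw [Representation.char_one, Characters.Values.character_eq_finrank_iff, MonoidHom.mem_ker]
    rfl
  refine ⟨ρ.ker, inferInstance, ?_, fun y hy => (h1 y).1 (hH y hy)⟩
  rintro h2
  obtain ⟨g, hg⟩ := hne
  apply hg
  rw [h1, h2]
  exact Subgroup.mem_top g

/-- An irreducible character other than the principal one is not constant. -/
theorem exists_ne_of_ne_one [Finite G] {χ : G → ℂ} (hχ : IsIrrCharacter G χ) (h1 : χ ≠ 1) :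
    ∃ g, χ g ≠ χ 1 := by
  classical
  have : Fintype G := Fintype.ofFinite _
  by_contra hcon
  push Not at hcon
  have h2 : χ = χ 1 • (1 : G → ℂ) := by
    funext g
    rw [hcon g]
    simp
  have h3 := classInner_irr_ne hχ isIrr_one h1
  rw [h2, classInner_smul_left, classInner_irr_self isIrr_one, mul_one] at h3
  exact isIrr_apply_one_ne_zero hχ h3

/-- If the restriction to the centralizer of `Q` is irreducible, of degree at least two, then `Q`
lies in a proper normal subgroup. -/
theorem exists_of_irr_restrict [Finite G] {Q : Subgroup G}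
    {χ : G → ℂ} (hχ : IsIrrCharacter G χ) (hχ1 : χ 1 ≠ 1)
    (hC : IsIrrCharacter (Subgroup.centralizer (Q : Set G))
      (fun c : Subgroup.centralizer (Q : Set G) => χ c)) :
    ∃ K : Subgroup G, K.Normal ∧ K ≠ ⊤ ∧ Q ≤ K := by
  obtain ⟨n, ρ, hρ, rfl⟩ := hχ
  let σ : Representation ℂ (Subgroup.centralizer (Q : Set G)) (Fin n → ℂ) :=
    ρ.comp (Subgroup.centralizer (Q : Set G)).subtype
  have hσ : σ.IsIrreducible := isIrreducible_of_isIrrCharacter σ hC
  let K : Subgroup G := (Subgroup.center (G ⧸ ρ.ker)).comap (QuotientGroup.mk' ρ.ker)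
  have hK : ∀ g, g ∈ K ↔ ∀ k, ρ g * ρ k = ρ k * ρ g := by
    intro g
    rw [Subgroup.mem_comap, Subgroup.mem_center_iff]
    constructor
    · intro h1 k
      have h2 := h1 (QuotientGroup.mk' ρ.ker k)
      rw [← map_mul, ← map_mul, QuotientGroup.mk'_apply, QuotientGroup.mk'_apply,
        QuotientGroup.eq, MonoidHom.mem_ker] at h2
      have h3 : ρ (k * g) * ρ ((k * g)⁻¹ * (g * k)) = ρ (g * k) := by
        rw [← map_mul]
        congr 1
        group
      rw [h2, mul_one, map_mul, map_mul] at h3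
      exact h3.symm
    · intro h1 k
      obtain ⟨k, rfl⟩ := QuotientGroup.mk'_surjective ρ.ker k
      rw [← map_mul, ← map_mul, QuotientGroup.mk'_apply, QuotientGroup.mk'_apply,
        QuotientGroup.eq, MonoidHom.mem_ker, map_mul]
      rw [map_mul ρ g k, h1 k, ← map_mul, ← map_mul]
      simp
  refine ⟨K, inferInstance, ?_, ?_⟩
  · intro h1
    apply hχ1
    have h2 : Module.finrank ℂ (Fin n → ℂ) = 1 := by
      apply CharactersDeep.Extraspecial.finrank_eq_one_of_commute ρ hρ
      intro g k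
      have : g ∈ K := by rw [h1]; exact Subgroup.mem_top g
      exact (hK g).1 this k
    rw [Representation.char_one, h2, Nat.cast_one]
  · intro x hx
    rw [hK]
    intro k
    obtain ⟨c, hc⟩ := Characters.Central.exists_smul_of_comm σ hσ (ρ x) (by
      intro g
      show ρ x * ρ g = ρ g * ρ x
      rw [← map_mul, ← map_mul, Subgroup.mem_centralizer_iff.1 g.2 x hx])
    rw [hc, smul_mul_assoc, mul_smul_comm, one_mul, mul_one]

/-- The main statement for degree at least two. -/
theorem exists_normal [Finite G] [hp : Fact p.Prime] (P : Sylow p G)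
    (h : Hyp p (P : Subgroup G)) {χ : G → ℂ} (hχ : IsIrrCharacter G χ) (x : ℕ) (hx : χ 1 = x)
    (hx2 : 2 ≤ x) (hdeg : x ^ 2 + 1 < Nat.card (P : Subgroup G)) :
    ∃ K : Subgroup G, K.Normal ∧ K ≠ ⊤ ∧ (P : Subgroup G) ≤ K := by
  classical
  have : Fintype G := Fintype.ofFinite _
  obtain ⟨E, hE1, hE2⟩ := Ext.exists_ext P h
  have : Fintype (Subgroup.centralizer ((P : Subgroup G) : Set G)) := Fintype.ofFinite _
  have hχc := isIrr_isCharacter hχ
  have hχ1 : χ 1 ≠ 1 := by
    rw [hx]
    intro h1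
    have : x = 1 := by exact_mod_cast h1
    omega
  have hχ1' : χ ≠ 1 := fun h1 => hχ1 (by rw [h1]; rfl)
  by_cases hχQ : ∀ y ∈ (P : Subgroup G), χ y = χ 1
  · exact exists_ker hχc _ hχQ (exists_ne_of_ne_one hχ hχ1')
  push Not at hχQ
  by_cases hirr : IsIrrCharacter (Subgroup.centralizer ((P : Subgroup G) : Set G))
      (fun c : Subgroup.centralizer ((P : Subgroup G) : Set G) => χ c)
  · exact exists_of_irr_restrict hχ hχ1 hirr
  have hresc : ∀ {f : G → ℂ}, IsCharacter G f →
      IsCharacter (Subgroup.centralizer ((P : Subgroup G) : Set G))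
      (fun c : Subgroup.centralizer ((P : Subgroup G) : Set G) => f c) := fun hf =>
    isCharacter_comp (Subgroup.centralizer ((P : Subgroup G) : Set G)).subtype hf
  obtain ⟨N, hN⟩ := classInner_isNat (hresc hχc) (hresc hχc)
  have hN1 : N ≠ 1 := by
    intro h1
    apply hirr
    rw [isIrr_iff_classInner_self (hresc hχc), hN, h1, Nat.cast_one]
  have hN0 : N ≠ 0 := by
    intro h1
    rw [h1, Nat.cast_zero] at hN
    have h2 := congrFun (classInner_self_eq_zero hN) 1
    exact isIrr_apply_one_ne_zero hχ h2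
  -- the product
  have hΦc : IsCharacter G (fun g => χ g * conj (χ g)) :=
    isCharacter_mul hχc (isCharacter_conj hχc)
  have hΦ1 : classInner (fun g => χ g * conj (χ g)) 1 = 1 := by
    rw [← classInner_irr_self hχ]
    unfold classInner
    congr 1
    refine Finset.sum_congr rfl fun g _ => ?_
    simp
  have hΦN : classInner (1 : Subgroup.centralizer ((P : Subgroup G) : Set G) → ℂ)
      (fun c : Subgroup.centralizer ((P : Subgroup G) : Set G) => χ c * conj (χ c)) = N := by
    rw [← hN]
    unfold classInner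
    congr 1
    refine Finset.sum_congr rfl fun g _ => ?_
    simp [mul_comm]
  have hfin : Finite (IrrCharacter G) := finite_irr
  have : Fintype (IrrCharacter G) := Fintype.ofFinite _
  obtain ⟨n, hn⟩ := exists_nat_comb hΦc
  let i1 : IrrCharacter G := ⟨1, isIrr_one⟩
  have hni1 : n i1 = 1 := by
    have h1 := classInner_sum_nsmul_irr n i1
    rw [← hn] at h1
    have h2 : classInner (fun g => χ g * conj (χ g)) ((i1 : IrrCharacter G) : G → ℂ) = 1 := hΦ1
    rw [h2] at h1
    exact_mod_cast h1.symm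
  choose a ha using fun i : IrrCharacter G =>
    classInner_isNat (G := Subgroup.centralizer ((P : Subgroup G) : Set G)) isCharacter_one
      (hresc (isIrr_isCharacter i.2))
  have hai1 : a i1 = 1 := by
    have h1 := ha i1
    have h2 : classInner (1 : Subgroup.centralizer ((P : Subgroup G) : Set G) → ℂ)
      (fun c : Subgroup.centralizer ((P : Subgroup G) : Set G) => (i1 : G → ℂ) c) = 1 :=
      classInner_irr_self isIrr_one
    rw [h2] at h1
    exact_mod_cast h1.symm
  have hsumN : N = ∑ i, n i * a i := by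
    have h1 : (fun c : Subgroup.centralizer ((P : Subgroup G) : Set G) => χ c * conj (χ c)) =
        ∑ i : IrrCharacter G, (n i : ℂ) •
          fun c : Subgroup.centralizer ((P : Subgroup G) : Set G) => (i : G → ℂ) c := by
      funext c
      have h2 := congrFun hn (c : G)
      rw [Finset.sum_apply] at h2 ⊢
      rw [h2]
      refine Finset.sum_congr rfl fun i _ => ?_
      simp
    rw [h1, classInner_sum_right] at hΦN
    have h3 : ((∑ i, n i * a i : ℕ) : ℂ) = N := by
      rw [← hΦN]
      push_cast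
      refine Finset.sum_congr rfl fun i _ => ?_
      rw [classInner_smul_right, ha i, Complex.conj_natCast]
    exact_mod_cast h3.symm
  obtain ⟨i, hi1, hi⟩ : ∃ i, i ≠ i1 ∧ 0 < n i * a i := by
    by_contra hcon
    push Not at hcon
    rw [Finset.sum_eq_single i1 (fun i _ hi => Nat.le_zero.1 (hcon i hi))
      (fun h => absurd (Finset.mem_univ _) h), hni1, hai1] at hsumN
    omega
  have hni : 0 < n i := Nat.pos_of_mul_pos_right hi
  have hai : 0 < a i := Nat.pos_of_mul_pos_left hi
  have hψ1 : (i : G → ℂ) ≠ 1 := fun h1 => hi1 (Subtype.ext h1)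
  by_cases hψQ : ∀ y ∈ (P : Subgroup G), (i : G → ℂ) y = (i : G → ℂ) 1
  · exact exists_ker (isIrr_isCharacter i.2) _ hψQ (exists_ne_of_ne_one i.2 hψ1)
  push Not at hψQ
  exfalso
  let ξ : G → ℂ := (n i - 1) • (i : G → ℂ) + ∑ j ∈ Finset.univ.erase i, n j • (j : G → ℂ)
  have hξ : IsCharacter G ξ := isCharacter_add (isCharacter_nsmul _ (isIrr_isCharacter i.2))
    (isCharacter_sum _ fun j _ => isCharacter_nsmul _ (isIrr_isCharacter j.2))
  have hsum : (fun g => χ g * conj (χ g)) = (i : G → ℂ) + ξ := by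
    rw [hn, ← Finset.add_sum_erase _ _ (Finset.mem_univ i), ← add_assoc]
    congr 1
    obtain ⟨k, hk⟩ : ∃ k, n i = k + 1 := ⟨n i - 1, by omega⟩
    rw [hk, Nat.add_sub_cancel, add_smul, one_smul, add_comm]
  obtain ⟨y, hyP, hy⟩ := hχQ
  obtain ⟨z, hzP, hz⟩ := hψQ
  exact Main.core h E hE1 hE2 hχc i.2 hξ hsum x hx hdeg ⟨⟨y, hyP⟩, hy⟩ ⟨⟨z, hzP⟩, hz⟩ (a i) hai
    (ha i)

/-- The linear case. -/
theorem linear_case [Finite G] [hp : Fact p.Prime] (P : Sylow p G)
    (h : Hyp p (P : Subgroup G)) {χ : G → ℂ} (hχ : IsIrrCharacter G χ) (hx : χ 1 = 1)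
    (hχ1 : χ ≠ 1) :
    (∃ K : Subgroup G, K.Normal ∧ K ≠ ⊤ ∧ (P : Subgroup G) ≤ K) ∨
      ∃ N : Subgroup G, N.Normal ∧ N.index = Nat.card (P : Subgroup G) := by
  by_cases hχQ : ∀ y ∈ (P : Subgroup G), χ y = χ 1
  · exact Or.inl (exists_ker (isIrr_isCharacter hχ) _ hχQ (exists_ne_of_ne_one hχ hχ1))
  right
  push Not at hχQ
  obtain ⟨f, rfl⟩ := Characters.Linear.exists_hom_of_isIrrCharacter hχ hx
  let l : (P : Subgroup G) →* ℂˣ := f.comp (P : Subgroup G).subtype
  have hl : l ≠ 1 := by
    intro h1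
    obtain ⟨y, hyP, hy⟩ := hχQ
    apply hy
    have h2 := DFunLike.congr_fun h1 ⟨y, hyP⟩
    have h3 : f y = 1 := h2
    show ((f y : ℂˣ) : ℂ) = ((f 1 : ℂˣ) : ℂ)
    rw [h3, map_one]
  have hNC : Subgroup.normalizer ((P : Subgroup G) : Set G) ≤
      Subgroup.centralizer ((P : Subgroup G) : Set G) := by
    intro t ht
    by_contra hc
    apply hl
    apply h.stab (t := ⟨t, ht⟩) l hc
    ext x
    show ((f ((cjQ (P : Subgroup G) ⟨t, ht⟩ x : (P : Subgroup G)) : G) : ℂˣ) : ℂ) = _
    rw [cjQ_coe, map_mul, map_mul, map_inv]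
    show (((f t)⁻¹ * f x * f t : ℂˣ) : ℂ) = ((f x : ℂˣ) : ℂ)
    rw [mul_comm (f t)⁻¹, inv_mul_cancel_right]
  refine ⟨(MonoidHom.transferSylow P hNC).ker, inferInstance, ?_⟩
  have h1 := MonoidHom.ker_transferSylow_isComplement' P hNC
  exact h1.symm.index_eq_card

end Cfsg.Agent.H603.Final
end
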